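import Cfsg.Agent.H66.UField.Sym
import Cfsg.Agent.H58.ExtField.Main
import Cfsg.Agent.H98.HermStd
import Cfsg.Agent.H98.HermSub

/-!
# Overgroups of unitary groups over an extension field: setting and elements

The space `Fin n → F` has a structure over an extension `E` of prime degree and the standard Hermitian form is
the trace of an `E`-Hermitian form `fE`.
-/

set_option autoImplicit false
set_option linter.unusedSectionVars false
set_option linter.unusedVariables false

namespace Cfsg.Agent.H66.UField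

open scoped Matrix
open Cfsg.Agent.H58.ExtField Cfsg.Agent.H98

variable {n q : ℕ} {F : Type*} [Field F] [Fintype F]
variable {E : Type*} [Field E] [Fintype E] [Algebra F E]

/-- `tr (x * τ y)` as a one dimensional unitary form. -/
theorem Invol.one_form {σ : F ≃+* F} {τ : E ≃+* E} (h : Invol σ τ) :
    Cfsg.Geo.IsUnitaryForm τ (fun x y : Fin 1 → E => x 0 * τ (y 0)) where
  ne_refl e := by
    obtain ⟨f, hf⟩ := h.moved
    refine hf ((algebraMap F E).injective ?_)
    rw [← h.compat, e, RingEquiv.refl_apply]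
  involutive := h.invol
  add_left u v w := add_mul _ _ _
  smul_left a v w := mul_assoc _ _ _
  herm v w := by rw [map_mul, h.invol, mul_comm]
  nondegenerate v hv := by
    have h0 : v 0 ≠ 0 := fun e => hv (funext fun i => by rw [Fin.fin_one_eq_zero i, e]; rfl)
    exact ⟨⟨1, by simpa using h0⟩, ⟨1, by simpa using h0⟩⟩

variable [Module E (Fin n → F)] [IsScalarTower F E (Fin n → F)]

local notation "Mat" => Matrix (Fin n) (Fin n) F
local notation "V" => (Fin n → F)

/-- The hypotheses. -/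
structure UCtx (hF : Fintype.card F = q ^ 2) (τ : E ≃+* E) (fE : (Fin n → F) → (Fin n → F) → E)
    (M : Subgroup (GL (Fin n) F)) : Prop where
  inv : Invol (Herm.frobQ hF) τ
  prime : (Module.finrank F E).Prime
  three : 3 ≤ Module.finrank F E
  four : 4 ≤ n
  indep : ∀ v : (Fin n → F), ∃ w : (Fin n → F), w ∉ Submodule.span E {v}
  le_su : M ≤ Cfsg.GU n F q ⊓ Cfsg.Geo.specialLinear (Fin n) F
  add_left : ∀ x y z, fE (x + y) z = fE x z + fE y z
  smul_left : ∀ (c : E) x z, fE (c • x) z = c * fE x z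
  herm : ∀ x y, fE y x = τ (fE x y)
  htr : ∀ x y (c : E), Algebra.trace F E (fE x y * c) = Cfsg.hermForm n F q (c • x) y
  lin : ∀ g ∈ Cfsg.GU n F q ⊓ Cfsg.Geo.specialLinear (Fin n) F, ELin E g → g ∈ M
  notSemi : ∃ h ∈ M, ¬ Semi E h
  exEps : ∃ ε : E, ε * τ ε = 1 ∧ ε ∉ Set.range (algebraMap F E) ∧
    (Algebra.norm F ε = 1 ∨ ∀ a b : (Fin n → F), ∃ w, w ∉ Submodule.span E ({a, b} : Set (Fin n → F)))

variable {hF : Fintype.card F = q ^ 2} {τ : E ≃+* E} {fE : (Fin n → F) → (Fin n → F) → E}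
  {M : Subgroup (GL (Fin n) F)}

theorem UCtx.add_right (H : UCtx hF τ fE M) (x y z : V) : fE x (y + z) = fE x y + fE x z := by
  rw [H.herm, H.add_left, map_add, ← H.herm, ← H.herm]

theorem UCtx.smul_right (H : UCtx hF τ fE M) (c : E) (x y : V) : fE x (c • y) = τ c * fE x y := by
  rw [H.herm, H.smul_left, map_mul, ← H.herm]

theorem UCtx.sub_right (H : UCtx hF τ fE M) (x y z : V) : fE x (y - z) = fE x y - fE x z := by
  rw [eq_sub_iff_add_eq, ← H.add_right, sub_add_cancel]

theorem UCtx.sub_left (H : UCtx hF τ fE M) (x y z : V) : fE (x - y) z = fE x z - fE y z := by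
  rw [eq_sub_iff_add_eq, ← H.add_left, sub_add_cancel]

theorem UCtx.zero_left (H : UCtx hF τ fE M) (z : V) : fE 0 z = 0 := by
  simpa using H.smul_left 0 0 z

theorem UCtx.zero_right (H : UCtx hF τ fE M) (z : V) : fE z 0 = 0 := by
  rw [H.herm, H.zero_left, map_zero]

theorem UCtx.eq_zero_comm (H : UCtx hF τ fE M) {x y : V} : fE x y = 0 ↔ fE y x = 0 := by
  rw [H.herm x y, map_eq_zero_iff τ τ.injective]

theorem UCtx.self_fixed (H : UCtx hF τ fE M) (x : V) : τ (fE x x) = fE x x := (H.herm x x).symm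

theorem UCtx.beta_eq (H : UCtx hF τ fE M) (x y : V) :
    Cfsg.hermForm n F q x y = Algebra.trace F E (fE x y) := by
  conv_lhs => rw [← one_smul E x, ← H.htr, mul_one]

/-- The functional `z ↦ fE z v`. -/
noncomputable def fl (H : UCtx hF τ fE M) (v : Fin n → F) : (Fin n → F) →ₗ[E] E where
  toFun z := fE z v
  map_add' x y := H.add_left x y v
  map_smul' c x := H.smul_left c x v

@[simp] theorem fl_apply (H : UCtx hF τ fE M) (v z : V) : fl H v z = fE z v := rfl

theorem UCtx.exists_ne (H : UCtx hF τ fE M) {x : V} (hx : x ≠ 0) : ∃ y, fE x y ≠ 0 := by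
  obtain ⟨⟨y, hy⟩, -⟩ := (Herm.isUnitary_std (n := n) hF).nondegenerate x hx
  exact ⟨y, fun h => hy (by rw [H.beta_eq, H.eq_zero_comm.1 h, map_zero])⟩

theorem UCtx.exists_rep (H : UCtx hF τ fE M) (φ : V →ₗ[E] E) : ∃ u, ∀ z, φ z = fE z u := by
  haveI : Module.Finite E V := Module.Finite.of_finite
  haveI : Finite (V →ₗ[E] E) := Module.finite_of_finite E
  have hinj : Function.Injective (fl H) := fun a b hab => by
    by_contra hne
    obtain ⟨y, hy⟩ := H.exists_ne (sub_ne_zero.2 hne)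
    refine hy (H.eq_zero_comm.1 ?_)
    rw [H.sub_right, sub_eq_zero]
    exact LinearMap.congr_fun hab y
  have hcard : Nat.card V = Nat.card (V →ₗ[E] E) := by
    have h1 : Nat.card V = Nat.card E ^ Module.finrank E V := Module.natCard_eq_pow_finrank
    have h2 : Nat.card (Module.Dual E V) = Nat.card E ^ Module.finrank E (Module.Dual E V) :=
      Module.natCard_eq_pow_finrank
    rw [Subspace.dual_finrank_eq] at h2
    exact h1.trans h2.symm
  obtain ⟨u, hu⟩ := (Nat.bijective_iff_injective_and_card (fl H)).2 ⟨hinj, hcard⟩ |>.2 φ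
  exact ⟨u, fun z => by rw [← hu]; rfl⟩

/-- Outside the line of `v` there is a dual vector. -/
theorem UCtx.exists_dual (H : UCtx hF τ fE M) {v w : V} (hw : w ∉ Submodule.span E {v}) :
    ∃ u, fE w u = 1 ∧ fE v u = 0 := by
  obtain ⟨φ, h1, h2⟩ := exists_efunctional hw
  obtain ⟨u, hu⟩ := H.exists_rep φ
  exact ⟨u, by rw [← hu, h1], by rw [← hu]; exact h2 v (Submodule.mem_span_singleton_self v)⟩

theorem UCtx.exists_value (H : UCtx hF τ fE M) {v : V} (hv : v ≠ 0) (a : E) : ∃ z, fE z v = a := by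
  obtain ⟨y, hy⟩ := H.exists_ne hv
  have hy' : fE y v ≠ 0 := fun h => hy (H.eq_zero_comm.1 h)
  exact ⟨(a / fE y v) • y, by rw [H.smul_left, div_mul_cancel₀ _ hy']⟩

theorem UCtx.exists_trace (H : UCtx hF τ fE M) {a : E} (ha : τ a = a) : ∃ x, x + τ x = a :=
  Herm.exists_trace H.inv.one_form ha

theorem UCtx.exists_norm (H : UCtx hF τ fE M) {a : E} (ha : τ a = a) : ∃ x, x * τ x = a :=
  Herm.exists_norm H.inv.one_form ha

theorem UCtx.exists_skew (H : UCtx hF τ fE M) :
    ∃ ζ : F, ζ ≠ 0 ∧ Herm.frobQ hF ζ = -ζ ∧ τ (algebraMap F E ζ) = -algebraMap F E ζ ∧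
      algebraMap F E ζ ≠ 0 := by
  obtain ⟨ζ, h0, h1⟩ := Herm.exists_skew (Herm.isUnitary_std (n := n) hF)
  exact ⟨ζ, h0, h1, by rw [H.inv.compat, h1, map_neg], by simpa using h0⟩

/-! ### Geometry of the extended form -/

theorem UCtx.exists_iso (H : UCtx hF τ fE M) : ∃ v : V, v ≠ 0 ∧ fE v v = 0 := by
  obtain ⟨x, hx⟩ := H.indep 0
  have hx0 : x ≠ 0 := fun e => hx (by rw [e]; exact zero_mem _)
  by_cases hxx : fE x x = 0
  · exact ⟨x, hx0, hxx⟩
  obtain ⟨w, hw⟩ := H.indep x
  set y := w - (fE w x / fE x x) • x with hy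
  have hyx : fE y x = 0 := by rw [hy, H.sub_left, H.smul_left, div_mul_cancel₀ _ hxx, sub_self]
  have hy0 : y ≠ 0 := fun e => hw (by
    rw [sub_eq_zero.1 (hy.symm.trans e)]
    exact Submodule.smul_mem _ _ (Submodule.mem_span_singleton_self x))
  by_cases hyy : fE y y = 0
  · exact ⟨y, hy0, hyy⟩
  obtain ⟨l, hl⟩ := H.exists_norm (a := -fE x x / fE y y) (by rw [map_div₀, map_neg, H.self_fixed, H.self_fixed])
  refine ⟨x + l • y, fun e => hxx ?_, ?_⟩
  · have : fE (x + l • y) x = 0 := by rw [e, H.zero_left]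
    rwa [H.add_left, H.smul_left, hyx, mul_zero, add_zero] at this
  · rw [H.add_left, H.add_right, H.add_right, H.smul_left, H.smul_left, H.smul_right, H.smul_right, hyx,
      H.eq_zero_comm.1 hyx, ← mul_assoc, hl, div_mul_cancel₀ _ hyy]
    ring

theorem UCtx.exists_partner (H : UCtx hF τ fE M) {v : V} (hv : v ≠ 0) (hvv : fE v v = 0) :
    ∃ e, fE e e = 0 ∧ fE v e = 1 ∧ fE e v = 1 := by
  obtain ⟨y, hy⟩ := H.exists_value hv 1
  have hy' : fE v y = 1 := by rw [H.herm, hy, map_one]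
  obtain ⟨t, ht⟩ := H.exists_trace (a := -fE y y) (by rw [map_neg, H.self_fixed])
  refine ⟨y + t • v, ?_, ?_, ?_⟩
  · simp only [H.add_left, H.add_right, H.smul_left, H.smul_right, hvv, hy, hy']
    linear_combination ht
  · rw [H.add_right, H.smul_right, hvv, hy', mul_zero, add_zero]
  · rw [H.add_left, H.smul_left, hvv, hy, mul_zero, add_zero]

/-- An isotropic vector not orthogonal to a given one. -/
theorem UCtx.exists_iso_ne (H : UCtx hF τ fE M) {x : V} (hx : x ≠ 0) : ∃ e, fE e e = 0 ∧ fE x e ≠ 0 := by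
  obtain ⟨v, hv, hvv⟩ := H.exists_iso
  obtain ⟨e, hee, hve, hev⟩ := H.exists_partner hv hvv
  by_cases h1 : fE x v = 0
  swap
  · exact ⟨v, hvv, h1⟩
  by_cases h2 : fE x e = 0
  swap
  · exact ⟨e, hee, h2⟩
  by_cases hxx : fE x x = 0
  · obtain ⟨e', he', hxe', -⟩ := H.exists_partner hx hxx
    exact ⟨e', he', by rw [hxe']; exact one_ne_zero⟩
  obtain ⟨t, ht⟩ := H.exists_trace (a := -fE x x) (by rw [map_neg, H.self_fixed])
  refine ⟨x + t • v + e, ?_, ?_⟩
  · simp only [H.add_left, H.add_right, H.smul_left, H.smul_right, hvv, hee, hve, hev, h1, h2,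
      H.eq_zero_comm.1 h1, H.eq_zero_comm.1 h2]
    linear_combination ht
  · rwa [H.add_right, H.add_right, H.smul_right, h1, h2, mul_zero, add_zero, add_zero]

/-- A skew element of nonzero trace. -/
theorem UCtx.exists_skew_trace (H : UCtx hF τ fE M) :
    ∃ s : E, τ s = -s ∧ Algebra.trace F E s ≠ 0 := by
  obtain ⟨ζ, hζ0, -, hζ, -⟩ := H.exists_skew
  by_contra hc
  push Not at hc
  have h0 : ∀ c : E, Algebra.trace F E c = 0 := by
    refine H.inv.ext_fixed (Algebra.trace F E) fun x hx => ?_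
    have := hc (ζ • x) (by rw [Algebra.smul_def, map_mul, hζ, hx]; ring)
    rw [map_smul, smul_eq_mul] at this
    exact (mul_eq_zero.1 this).resolve_left hζ0
  exact one_ne_zero (eq_zero_of_trace (F := F) (e := (1 : E)) fun c => by rw [one_mul]; exact h0 c)

/-- A vector is a sum of two isotropic vectors that are not orthogonal for the standard form. -/
theorem UCtx.exists_split (H : UCtx hF τ fE M) {x : V} (hxx : fE x x ≠ 0) :
    ∃ a b, fE a a = 0 ∧ fE b b = 0 ∧ x = a + b ∧ Cfsg.hermForm n F q a b ≠ 0 := by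
  have hx : x ≠ 0 := fun e => hxx (by rw [e, H.zero_left])
  obtain ⟨e, hee, hxe⟩ := H.exists_iso_ne hx
  obtain ⟨t, ht, htr⟩ : ∃ t, t + τ t = fE x x ∧ Algebra.trace F E t ≠ 0 := by
    obtain ⟨t, ht⟩ := H.exists_trace (H.self_fixed x)
    obtain ⟨s, hs, hstr⟩ := H.exists_skew_trace
    by_cases h0 : Algebra.trace F E t = 0
    · refine ⟨t + s, by rw [map_add, hs, ← ht]; ring, by rwa [map_add, h0, zero_add]⟩
    · exact ⟨t, ht, h0⟩
  have hτ : τ (fE x e) ≠ 0 := by simpa using hxe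
  have hex : fE e x = τ (fE x e) := H.herm x e
  have hax : fE ((t / τ (fE x e)) • e) x = t := by rw [H.smul_left, hex, div_mul_cancel₀ _ hτ]
  have haa : fE ((t / τ (fE x e)) • e) ((t / τ (fE x e)) • e) = 0 := by
    rw [H.smul_left, H.smul_right, hee, mul_zero, mul_zero]
  set a := (t / τ (fE x e)) • e
  have hxa : fE x a = τ t := by rw [H.herm a x, hax]
  refine ⟨a, x - a, haa, ?_, (add_sub_cancel a x).symm, ?_⟩
  · rw [H.sub_left, H.sub_right, H.sub_right, haa, hax, hxa]
    linear_combination -ht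
  · rwa [H.beta_eq, H.sub_right, haa, hax, sub_zero]

/-! ### Elements -/

theorem UCtx.mem_M (H : UCtx hF τ fE M) {g : GL (Fin n) F} (hs : g ∈ Cfsg.Geo.specialLinear (Fin n) F)
    (hl : ELin E g) (h : ∀ x y, fE ((g : Mat) *ᵥ x) ((g : Mat) *ᵥ y) = fE x y) : g ∈ M :=
  H.lin g ⟨Herm.mem_GU_iff hF |>.2 fun a b => by rw [H.beta_eq, H.beta_eq, h], hs⟩ hl

theorem UCtx.iso (H : UCtx hF τ fE M) {g : GL (Fin n) F} (hg : g ∈ M) (a b : V) :
    Cfsg.hermForm n F q ((g : Mat) *ᵥ a) ((g : Mat) *ᵥ b) = Cfsg.hermForm n F q a b :=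
  (H.le_su hg).1 a b

/-- Transvections over the extension. -/
noncomputable def ts (H : UCtx hF τ fE M) (v : Fin n → F) (d : E) : GL (Fin n) F :=
  el v ((d • fl H v).restrictScalars F)

theorem UCtx.ts_kill (H : UCtx hF τ fE M) {v : V} (hv : fE v v = 0) (d : E) : (d • fl H v) v = 0 := by
  rw [LinearMap.smul_apply, fl_apply, hv, smul_zero]

theorem UCtx.ts_mulVec (H : UCtx hF τ fE M) {v : V} (hv : fE v v = 0) (d : E) (x : V) :
    (ts H v d : Mat) *ᵥ x = x + (d * fE x v) • v := by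
  rw [ts, el_mulVec (kills_lin (H.ts_kill hv d))]; rfl

theorem UCtx.ts_mem (H : UCtx hF τ fE M) {v : V} (hv : fE v v = 0) {d : E} (hd : τ d = -d) : ts H v d ∈ M := by
  refine H.mem_M (el_mem_sl _ _) (el_elin (H.ts_kill hv d)) fun x y => ?_
  simp only [H.ts_mulVec hv, H.add_left, H.add_right, H.smul_left, H.smul_right, hv, map_mul, hd, ← H.herm y v]
  ring

/-- Eichler elements over the extension. -/
noncomputable def ei (H : UCtx hF τ fE M) (v u : Fin n → F) (γ : E) : GL (Fin n) F :=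
  el (u + γ • v) ((fl H v).restrictScalars F) * el v ((-(fl H u)).restrictScalars F)

theorem UCtx.ei_mulVec (H : UCtx hF τ fE M) {v u : V} (hv : fE v v = 0) (huv : fE u v = 0) (γ : E) (x : V) :
    (ei H v u γ : Mat) *ᵥ x = x - fE x u • v + fE x v • (u + γ • v) := by
  have k1 : fl H v (u + γ • v) = 0 := by rw [fl_apply, H.add_left, H.smul_left, huv, hv, mul_zero, add_zero]
  have k2 : (-(fl H u)) v = 0 := by rw [LinearMap.neg_apply, fl_apply, H.eq_zero_comm.1 huv, neg_zero]
  simp only [ei, Units.val_mul, ← Matrix.mulVec_mulVec, el_mulVec (kills_lin k1), el_mulVec (kills_lin k2),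
    LinearMap.restrictScalars_apply, LinearMap.neg_apply, fl_apply, H.add_left, H.smul_left, hv, mul_zero,
    add_zero]
  module

theorem UCtx.ei_mem (H : UCtx hF τ fE M) {v u : V} (hv : fE v v = 0) (huv : fE u v = 0) {γ : E}
    (hγ : γ + τ γ + fE u u = 0) : ei H v u γ ∈ M := by
  have hvu := H.eq_zero_comm.1 huv
  refine H.mem_M (mul_mem (el_mem_sl _ _) (el_mem_sl _ _)) (fun c x => ?_) fun x y => ?_
  · simp only [H.ei_mulVec hv huv, H.smul_left]
    module
  · simp only [H.ei_mulVec hv huv, H.add_left, H.add_right, H.sub_left, H.sub_right, H.smul_left, H.smul_right,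
      hv, huv, hvu, ← H.herm y v, ← H.herm y u]
    linear_combination (fE x v * fE v y) * hγ

open scoped Classical in
/-- A pseudo-transvection over the extension. -/
noncomputable def pr (u : Fin n → F) (φ : (Fin n → F) →ₗ[E] E) : GL (Fin n) F :=
  if h : (LinearMap.toMatrix' ((LinearMap.transvection φ u).restrictScalars F)).det ≠ 0 then
    Matrix.GeneralLinearGroup.mkOfDetNeZero _ h
  else 1

theorem pr_det_eq (u : V) (φ : V →ₗ[E] E) :
    (LinearMap.toMatrix' ((LinearMap.transvection φ u).restrictScalars F)).det =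
      Algebra.norm F (1 + φ u) := by
  rw [LinearMap.det_toMatrix', LinearMap.det_restrictScalars, LinearMap.transvection.det]

theorem pr_val {u : V} {φ : V →ₗ[E] E} (h : 1 + φ u ≠ 0) :
    (pr u φ : Mat) = LinearMap.toMatrix' ((LinearMap.transvection φ u).restrictScalars F) := by
  rw [pr, dif_pos (by rw [pr_det_eq, ne_eq, Algebra.norm_eq_zero_iff]; exact h)]; rfl

theorem pr_mulVec {u : V} {φ : V →ₗ[E] E} (h : 1 + φ u ≠ 0) (x : V) :
    (pr u φ : Mat) *ᵥ x = x + φ x • u := by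
  rw [pr_val h, LinearMap.toMatrix'_mulVec, LinearMap.restrictScalars_apply, LinearMap.transvection.apply]

theorem pr_det {u : V} {φ : V →ₗ[E] E} (h : 1 + φ u ≠ 0) :
    (pr u φ : Mat).det = Algebra.norm F (1 + φ u) := by
  rw [pr_val h, pr_det_eq]

/-- A reflection with a given determinant. -/
theorem UCtx.exists_reflection (H : UCtx hF τ fE M) {u : V} (hu : fE u u ≠ 0) {ε : E} (hε : ε * τ ε = 1)
    (hN : Algebra.norm F ε = 1) :
    ∃ g ∈ M, ∀ x, (g : Mat) *ᵥ x = x + ((ε - 1) / fE u u * fE x u) • u := by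
  set φ : V →ₗ[E] E := ((ε - 1) / fE u u) • fl H u with hφ
  have h1 : 1 + φ u = ε := by
    rw [hφ, LinearMap.smul_apply, fl_apply, smul_eq_mul, div_mul_cancel₀ _ hu, add_sub_cancel]
  have h0 : 1 + φ u ≠ 0 := by rw [h1]; rintro rfl; rw [zero_mul] at hε; exact zero_ne_one hε
  have hm : ∀ x, (pr u φ : Mat) *ᵥ x = x + ((ε - 1) / fE u u * fE x u) • u := fun x => by
    rw [pr_mulVec h0, hφ, LinearMap.smul_apply, fl_apply, smul_eq_mul]
  refine ⟨pr u φ, H.mem_M (MonoidHom.mem_ker.2 (Units.ext ?_)) (fun c x => ?_) (fun x y => ?_), hm⟩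
  · rw [Matrix.GeneralLinearGroup.val_det_apply, pr_det h0, h1, hN, Units.val_one]
  · rw [hm, hm, H.smul_left, smul_add, smul_smul]; ring_nf
  · simp only [hm, H.add_left, H.add_right, H.smul_left, H.smul_right, map_mul, map_div₀, map_sub, map_one,
      H.self_fixed, ← H.herm y u]
    field_simp
    linear_combination (fE x u * fE u y) * hε

/-- A scaling of a hyperbolic pair. -/
theorem UCtx.exists_scaling (H : UCtx hF τ fE M) {v : V} (hv : v ≠ 0) (hvv : fE v v = 0) {ρ : E}
    (hρ : ρ ≠ 0) (hN : Algebra.norm F (ρ / τ ρ) = 1) :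
    ∃ g ∈ M, ELin E g ∧ (g : Mat) *ᵥ v = ρ • v := by
  obtain ⟨e, hee, hve, hev⟩ := H.exists_partner hv hvv
  have hτρ : τ ρ ≠ 0 := by simpa using hρ
  set φ : V →ₗ[E] E := (ρ - 1) • fl H e with hφ
  set ψ : V →ₗ[E] E := ((τ ρ)⁻¹ - 1) • fl H v with hψ
  have h1 : 1 + φ v = ρ := by simp [hφ, hve]
  have h2 : 1 + ψ e = (τ ρ)⁻¹ := by simp [hψ, hev]
  have g1 : 1 + φ v ≠ 0 := by rwa [h1]
  have g2 : 1 + ψ e ≠ 0 := by rw [h2]; exact inv_ne_zero hτρ
  set g := pr v φ * pr e ψ with hg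
  have hm : ∀ x, (g : Mat) *ᵥ x = x + ((ρ - 1) * fE x e) • v + (((τ ρ)⁻¹ - 1) * fE x v) • e := fun x => by
    simp only [hg, Units.val_mul, ← Matrix.mulVec_mulVec, pr_mulVec g1, pr_mulVec g2]
    simp only [hφ, hψ, LinearMap.smul_apply, fl_apply, smul_eq_mul, H.add_left, H.smul_left, hee, mul_zero, add_zero]
    abel
  have hl : ELin E g := fun c x => by rw [hm, hm, H.smul_left, H.smul_left]; module
  refine ⟨g, H.mem_M (MonoidHom.mem_ker.2 (Units.ext ?_)) hl (fun x y => ?_), hl, ?_⟩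
  · rw [Matrix.GeneralLinearGroup.val_det_apply, hg, Units.val_mul, Matrix.det_mul, pr_det g1, pr_det g2, h1, h2,
      ← map_mul, ← div_eq_mul_inv, hN, Units.val_one]
  · simp only [hm, H.add_left, H.add_right, H.smul_left, H.smul_right, map_mul, map_sub, map_one, map_inv₀,
      H.inv.invol, hee, hvv, hve, hev, ← H.herm y e, ← H.herm y v]
    field_simp
    ring
  · rw [hm, hve, hvv, mul_one, mul_zero, zero_smul, add_zero, sub_smul, one_smul, add_sub_cancel]


/-- In dimension at least three two vectors spanning a non-degenerate plane have an anisotropic common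
orthogonal vector. -/
theorem UCtx.exists_perp (H : UCtx hF τ fE M)
    (h3 : ∀ a b : V, ∃ w, w ∉ Submodule.span E ({a, b} : Set V)) {a b : V}
    (hD : fE a a * fE b b - fE a b * fE b a ≠ 0) : ∃ u, fE u a = 0 ∧ fE u b = 0 ∧ fE u u ≠ 0 := by
  set D := fE a a * fE b b - fE a b * fE b a with hD'
  have proj : ∀ w : V, ∃ α β : E, fE (w - α • a - β • b) a = 0 ∧ fE (w - α • a - β • b) b = 0 := fun w => by
    refine ⟨(fE w a * fE b b - fE w b * fE b a) / D, (fE w b * fE a a - fE w a * fE a b) / D, ?_, ?_⟩ <;>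
      (rw [H.sub_left, H.sub_left, H.smul_left, H.smul_left]; field_simp; rw [hD']; ring)
  obtain ⟨w, hw⟩ := h3 a b
  obtain ⟨α, β, hpa, hpb⟩ := proj w
  set p := w - α • a - β • b with hp
  by_cases hpp : fE p p = 0
  swap
  · exact ⟨p, hpa, hpb, hpp⟩
  have hp0 : p ≠ 0 := fun e => hw (by
    rw [hp, sub_sub, sub_eq_zero] at e
    rw [e]
    exact add_mem (Submodule.smul_mem _ _ (Submodule.subset_span (Set.mem_insert _ _)))
      (Submodule.smul_mem _ _ (Submodule.subset_span (Set.mem_insert_of_mem _ rfl))))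
  obtain ⟨z, hzp⟩ := H.exists_value hp0 1
  obtain ⟨α', β', hza, hzb⟩ := proj z
  set z' := z - α' • a - β' • b with hz'
  have hzp' : fE z' p = 1 := by
    rw [hz', H.sub_left, H.sub_left, H.smul_left, H.smul_left, H.eq_zero_comm.1 hpa, H.eq_zero_comm.1 hpb, hzp,
      mul_zero, mul_zero, sub_zero, sub_zero]
  have hpz' : fE p z' = 1 := by rw [H.herm, hzp', map_one]
  obtain ⟨t, ht⟩ := H.exists_trace (a := 1 - fE z' z') (by rw [map_sub, map_one, H.self_fixed])
  refine ⟨z' + t • p, ?_, ?_, ?_⟩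
  · rw [H.add_left, H.smul_left, hza, hpa, mul_zero, add_zero]
  · rw [H.add_left, H.smul_left, hzb, hpb, mul_zero, add_zero]
  · have e : fE (z' + t • p) (z' + t • p) = 1 := by
      simp only [H.add_left, H.add_right, H.smul_left, H.smul_right, hzp', hpz', hpp]
      linear_combination ht
    rw [e]; exact one_ne_zero

/-- Two reflections with inverse determinants. -/
theorem UCtx.exists_reflection_pair (H : UCtx hF τ fE M) {u u' : V} (hu : fE u u ≠ 0) (hu' : fE u' u' ≠ 0)
    (h0 : fE u u' = 0) {ε : E} (hε : ε * τ ε = 1) :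
    ∃ g ∈ M, ELin E g ∧ ∀ x, (g : Mat) *ᵥ x =
      x + ((ε - 1) / fE u u * fE x u) • u + ((τ ε - 1) / fE u' u' * fE x u') • u' := by
  have h0' := H.eq_zero_comm.1 h0
  set φ : V →ₗ[E] E := ((ε - 1) / fE u u) • fl H u with hφ
  set ψ : V →ₗ[E] E := ((τ ε - 1) / fE u' u') • fl H u' with hψ
  have h1 : 1 + φ u = ε := by
    rw [hφ, LinearMap.smul_apply, fl_apply, smul_eq_mul, div_mul_cancel₀ _ hu, add_sub_cancel]
  have h2 : 1 + ψ u' = τ ε := by
    rw [hψ, LinearMap.smul_apply, fl_apply, smul_eq_mul, div_mul_cancel₀ _ hu', add_sub_cancel]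
  have g1 : 1 + φ u ≠ 0 := by rw [h1]; rintro rfl; rw [zero_mul] at hε; exact zero_ne_one hε
  have g2 : 1 + ψ u' ≠ 0 := by rw [h2]; intro e; rw [e, mul_zero] at hε; exact zero_ne_one hε
  set g := pr u φ * pr u' ψ with hg
  have hm : ∀ x, (g : Mat) *ᵥ x =
      x + ((ε - 1) / fE u u * fE x u) • u + ((τ ε - 1) / fE u' u' * fE x u') • u' := fun x => by
    simp only [hg, Units.val_mul, ← Matrix.mulVec_mulVec, pr_mulVec g1, pr_mulVec g2]
    simp only [hφ, hψ, LinearMap.smul_apply, fl_apply, smul_eq_mul, H.add_left, H.smul_left, h0', mul_zero, add_zero]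
    abel
  have hl : ELin E g := fun c x => by rw [hm, hm, H.smul_left, H.smul_left]; module
  refine ⟨g, H.mem_M (MonoidHom.mem_ker.2 (Units.ext ?_)) hl (fun x y => ?_), hl, hm⟩
  · rw [Matrix.GeneralLinearGroup.val_det_apply, hg, Units.val_mul, Matrix.det_mul, pr_det g1, pr_det g2, h1, h2,
      ← map_mul, hε, map_one, Units.val_one]
  · simp only [hm, H.add_left, H.add_right, H.smul_left, H.smul_right, map_mul, map_div₀, map_sub, map_one,
      H.self_fixed, H.inv.invol, ← H.herm y u, ← H.herm y u', h0, h0', mul_zero, add_zero, zero_add]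
    field_simp
    linear_combination (fE x u * fE u y * fE u' u' + fE x u' * fE u' y * fE u u) * hε

/-- Outside the base field a norm one scalar is the multiplier of some element of `M` on an anisotropic line
orthogonal to a given one. -/
theorem UCtx.exists_rot (H : UCtx hF τ fE M) {ε : E} (hε : ε * τ ε = 1)
    (hε' : Algebra.norm F ε = 1 ∨ ∀ a b : V, ∃ w, w ∉ Submodule.span E ({a, b} : Set V))
    {y u : V} (hyy : fE y y ≠ 0) (huu : fE u u ≠ 0) (hyu : fE y u = 0) :
    ∃ R ∈ M, (R : Mat) *ᵥ y = y ∧ ∀ x, fE ((R : Mat) *ᵥ x) u = ε * fE x u := by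
  rcases hε' with hN | h3
  · obtain ⟨R, hR, hRx⟩ := H.exists_reflection huu hε hN
    refine ⟨R, hR, by rw [hRx, hyu, mul_zero, zero_smul, add_zero], fun x => ?_⟩
    rw [hRx, H.add_left, H.smul_left]
    field_simp
    ring
  · obtain ⟨u', hu'y, hu'u, hu'⟩ := H.exists_perp h3 (a := y) (b := u)
      (by rw [hyu, zero_mul, sub_zero]; exact mul_ne_zero hyy huu)
    obtain ⟨R, hR, -, hRx⟩ := H.exists_reflection_pair huu hu' (H.eq_zero_comm.1 hu'u) hε
    refine ⟨R, hR, ?_, fun x => ?_⟩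
    · rw [hRx, hyu, H.eq_zero_comm.1 hu'y, mul_zero, zero_smul, mul_zero, zero_smul, add_zero, add_zero]
    · rw [hRx, H.add_left, H.add_left, H.smul_left, H.smul_left, hu'u, mul_zero, add_zero]
      field_simp
      ring

/-- The scalar `1 + ε` on an isotropic vector. -/
theorem UCtx.exists_scaling_eps (H : UCtx hF τ fE M) {ε : E} (hε : ε * τ ε = 1) (hε1 : 1 + ε ≠ 0)
    (hε' : Algebra.norm F ε = 1 ∨ ∀ a b : V, ∃ w, w ∉ Submodule.span E ({a, b} : Set V))
    {v : V} (hv : v ≠ 0) (hvv : fE v v = 0) :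
    ∃ g ∈ M, ELin E g ∧ (g : Mat) *ᵥ v = (1 + ε) • v := by
  have hratio : τ (1 + ε) * ε = 1 + ε := by rw [map_add, map_one]; linear_combination hε
  have hτ : τ (1 + ε) ≠ 0 := (map_ne_zero_iff τ τ.injective).2 hε1
  rcases hε' with hN | h3
  · refine H.exists_scaling hv hvv hε1 ?_
    rw [show (1 + ε) / τ (1 + ε) = ε by rw [div_eq_iff hτ, mul_comm, hratio], hN]
  · obtain ⟨e, hee, hve, hev⟩ := H.exists_partner hv hvv
    obtain ⟨u, huv, hue, huu⟩ := H.exists_perp h3 (a := v) (b := e)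
      (by rw [hvv, hee, hve, hev, mul_zero, mul_one, zero_sub]; exact neg_ne_zero.2 one_ne_zero)
    have hvu := H.eq_zero_comm.1 huv
    have heu := H.eq_zero_comm.1 hue
    set φ : V →ₗ[E] E := ((1 + ε) - 1) • fl H e with hφ
    set ψ : V →ₗ[E] E := ((τ (1 + ε))⁻¹ - 1) • fl H v with hψ
    set χ : V →ₗ[E] E := ((τ ε - 1) / fE u u) • fl H u with hχ
    have h1 : 1 + φ v = 1 + ε := by simp [hφ, hve]
    have h2 : 1 + ψ e = (τ (1 + ε))⁻¹ := by simp [hψ, hev]
    have h4 : 1 + χ u = τ ε := by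
      rw [hχ, LinearMap.smul_apply, fl_apply, smul_eq_mul, div_mul_cancel₀ _ huu, add_sub_cancel]
    have g1 : 1 + φ v ≠ 0 := by rwa [h1]
    have g2 : 1 + ψ e ≠ 0 := by rw [h2]; exact inv_ne_zero hτ
    have g3 : 1 + χ u ≠ 0 := by rw [h4]; intro h; rw [h, mul_zero] at hε; exact zero_ne_one hε
    set g := pr v φ * pr e ψ * pr u χ with hg
    have hm : ∀ x, (g : Mat) *ᵥ x = x + ((1 + ε - 1) * fE x e) • v + (((τ (1 + ε))⁻¹ - 1) * fE x v) • e +
        ((τ ε - 1) / fE u u * fE x u) • u := fun x => by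
      simp only [hg, Units.val_mul, ← Matrix.mulVec_mulVec, pr_mulVec g1, pr_mulVec g2, pr_mulVec g3]
      simp only [hφ, hψ, hχ, LinearMap.smul_apply, fl_apply, smul_eq_mul, H.add_left, H.smul_left, hee, huv, hue,
        mul_zero, add_zero]
      abel
    have hl : ELin E g := fun c x => by rw [hm, hm, H.smul_left, H.smul_left, H.smul_left]; module
    refine ⟨g, H.mem_M (MonoidHom.mem_ker.2 (Units.ext ?_)) hl (fun x y => ?_), hl, ?_⟩
    · rw [Matrix.GeneralLinearGroup.val_det_apply, hg, Units.val_mul, Units.val_mul, Matrix.det_mul, Matrix.det_mul,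
        pr_det g1, pr_det g2, pr_det g3, h1, h2, h4, ← map_mul, ← map_mul, ← div_eq_mul_inv,
        show (1 + ε) / τ (1 + ε) = ε by rw [div_eq_iff hτ, mul_comm, hratio], hε, map_one, Units.val_one]
    · simp only [hm, H.add_left, H.add_right, H.smul_left, H.smul_right, map_mul, map_div₀, map_sub, map_inv₀,
        H.inv.invol, map_one, H.self_fixed, hee, hvv, hve, hev, hvu, heu, huv, hue, ← H.herm y e, ← H.herm y v,
        ← H.herm y u, map_add, mul_zero, add_zero, zero_add]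
      have hεε : 1 + τ ε ≠ 0 := by rw [← map_one τ, ← map_add]; exact hτ
      field_simp
      linear_combination ((1 + τ ε) * (1 + ε) * fE x u * fE u y) * hε
    · rw [hm, hve, hvv, hvu, mul_one, mul_zero, zero_smul, mul_zero, zero_smul, add_zero, add_zero, sub_smul,
        one_smul, add_sub_cancel]

theorem UCtx.scale_fixed (H : UCtx hF τ fE M) {v : V} (hv : v ≠ 0) (hvv : fE v v = 0) {ρ : E}
    (hρ : ρ ≠ 0) (hfix : τ ρ = ρ) : ∃ g ∈ M, ELin E g ∧ (g : Mat) *ᵥ v = ρ • v :=
  H.exists_scaling hv hvv hρ (by rw [hfix, div_self hρ, map_one])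

end Cfsg.Agent.H66.UField
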