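import Cfsg.Agent.H66.UField.Line

/-!
# Overgroups of unitary groups over an extension field: counting in the extension
-/

set_option autoImplicit false
set_option linter.unusedSectionVars false
set_option linter.unusedVariables false

namespace Cfsg.Agent.H66.UField

open scoped Matrix
open Cfsg.Agent.H58.ExtField Cfsg.Agent.H98

variable {n q : ℕ} {F : Type*} [Field F] [Fintype F]
variable {E : Type*} [Field E] [Fintype E] [Algebra F E]
variable [Module E (Fin n → F)] [IsScalarTower F E (Fin n → F)]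

local notation "Gal'" => (E ≃ₐ[F] E)

variable {hF : Fintype.card F = q ^ 2} {τ : E ≃+* E} {fE : (Fin n → F) → (Fin n → F) → E}
  {M : Subgroup (GL (Fin n) F)}

/-- An element fixed by a non-trivial automorphism is in the base field. -/
theorem mem_range_of_fixed (hr : (Module.finrank F E).Prime) {g : Gal'} (hg : g ≠ 1) {x : E} (hx : g x = x) :
    x ∈ Set.range (algebraMap F E) := by
  rcases (Subalgebra.isSimpleOrder_of_finrank_prime F E hr).eq_bot_or_eq_top
    (AlgHom.equalizer (g : E →ₐ[F] E) (AlgHom.id F E)) with h0 | h0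
  · exact Algebra.mem_bot.1 (h0 ▸ (hx : x ∈ AlgHom.equalizer (g : E →ₐ[F] E) (AlgHom.id F E)) :
      x ∈ (⊥ : Subalgebra F E))
  · exact absurd (AlgEquiv.ext (f := g) (g := 1) fun y =>
      (show y ∈ AlgHom.equalizer (g : E →ₐ[F] E) (AlgHom.id F E) from h0 ▸ Algebra.mem_top)) hg

theorem natCard_gal : Nat.card Gal' = Module.finrank F E := IsGalois.card_aut_eq_finrank F E

theorem pow_finrank (g : Gal') : g ^ Module.finrank F E = 1 := natCard_gal (F := F) (E := E) ▸ pow_card_eq_one'

/-- Roots of unity of the prime degree lie in the base field. -/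
theorem mem_range_of_pow (hr : (Module.finrank F E).Prime) {x : E} (hx : x ^ Module.finrank F E = 1) :
    x ∈ Set.range (algebraMap F E) := by
  set r := Module.finrank F E with hr'
  haveI : Fact r.Prime := ⟨hr⟩
  have hmod : Fintype.card F ^ r % r = Fintype.card F % r := by
    have h1 : (((Fintype.card F) ^ r : ℕ) : ZMod r) = ((Fintype.card F : ℕ) : ZMod r) := by
      rw [Nat.cast_pow, ZMod.pow_card]
    exact (ZMod.natCast_eq_natCast_iff' _ _ _).1 h1
  have hE : x ^ (Fintype.card F ^ r) = x := by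
    rw [hr', ← Module.card_eq_pow_finrank (K := F) (V := E), FiniteField.pow_card]
  have h1 : x ^ Fintype.card F = x := by
    rw [pow_eq_pow_mod _ hx, ← hmod, ← pow_eq_pow_mod _ hx, hE]
  by_contra hc
  have hall : ∀ g : Gal', g x = x := fun g => by
    obtain ⟨i, hi⟩ := (FiniteField.bijective_frobeniusAlgEquivOfAlgebraic_pow F E).2 g
    have e : g x = x ^ (Fintype.card F ^ (i : ℕ)) := by
      rw [← hi]
      simp [FiniteField.coe_frobeniusAlgEquivOfAlgebraic_iterate, AlgEquiv.coe_pow]
    rw [e]
    generalize (i : ℕ) = j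
    induction j with
    | zero => simp
    | succ j ih => rw [pow_succ, pow_mul, ih, h1]
  exact hc (IntermediateField.mem_bot.1 ((IsGalois.mem_bot_iff_fixed x).2 hall))

/-- The fixed elements of the involution. -/
def Fx (τ : E ≃+* E) : AddSubgroup E := RingHom.eqLocusField τ.toRingHom (RingHom.id E) |>.toAddSubgroup

theorem mem_Fx {x : E} : x ∈ Fx τ ↔ τ x = x := Iff.rfl

/-- The fixed elements have cardinality `q ^ r`. -/
theorem card_Fx_of {E : Type*} [Field E] [Fintype E] [Algebra F E] (hF : Fintype.card F = q ^ 2) {τ : E ≃+* E}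
    (hinv : Invol (Herm.frobQ hF) τ) : Nat.card (Fx τ) = q ^ Module.finrank F E := by
  obtain ⟨ζ, hζ, hdec⟩ := hinv.decomp
  have hbij : Function.Bijective fun p : Fx τ × Fx τ => (p.1 : E) + ζ • (p.2 : E) := by
    refine ⟨fun p p' hp => ?_, fun c => ?_⟩
    · simp only at hp
      have h2 := congrArg τ hp
      rw [map_add, map_add, hinv.tau_smul, hinv.tau_smul, mem_Fx.1 p.1.2, mem_Fx.1 p.2.2, mem_Fx.1 p'.1.2,
        mem_Fx.1 p'.2.2] at h2
      have h3 : (ζ - Herm.frobQ hF ζ) • ((p.2 : E) - p'.2) = 0 := by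
        linear_combination (norm := module) hp - h2
      have h4 : (p.2 : E) = p'.2 := sub_eq_zero.1 ((smul_eq_zero.1 h3).resolve_left (sub_ne_zero.2 (Ne.symm hζ)))
      refine Prod.ext (Subtype.ext ?_) (Subtype.ext h4)
      rw [h4] at hp
      exact add_right_cancel hp
    · obtain ⟨a, b, ha, hb, hab⟩ := hdec c
      exact ⟨(⟨a, ha⟩, ⟨b, hb⟩), hab.symm⟩
  have h := Nat.card_eq_of_bijective _ hbij
  rw [Nat.card_prod, card_E F E, hF] at h
  refine Nat.pow_left_injective two_ne_zero ?_
  simp only
  rw [pow_two, h, ← pow_mul, ← pow_mul, mul_comm]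

theorem UCtx.card_Fx (H : UCtx hF τ fE M) : Nat.card (Fx τ) = q ^ Module.finrank F E :=
  card_Fx_of hF H.inv

theorem UCtx.two_le (H : UCtx hF τ fE M) : 2 ≤ q := by
  have := Fintype.one_lt_card (α := F)
  rw [hF] at this
  by_contra h
  interval_cases q <;> simp at this

/-- There are more fixed elements than automorphisms. -/
theorem UCtx.exists_two (H : UCtx hF τ fE M) (f : E → Gal') :
    ∃ a b : E, τ a = a ∧ τ b = b ∧ a ≠ b ∧ f a = f b := by
  by_contra hc
  push Not at hc
  have h1 := Nat.card_le_card_of_injective (fun x : Fx τ => f x) fun a b hab => by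
    by_contra hne
    exact hc a b (mem_Fx.1 a.2) (mem_Fx.1 b.2) (fun e => hne (Subtype.ext e)) hab
  rw [H.card_Fx, natCard_gal] at h1
  have := Nat.lt_pow_self (n := Module.finrank F E) H.two_le
  omega

/-- The elements moved into the base field by the Galois group form a space of dimension at most two. -/
def jSpace (F : Type*) [Field F] (E : Type*) [Field E] [Algebra F E] : Submodule F E where
  carrier := {c | ∀ g : E ≃ₐ[F] E, g c - c ∈ Set.range (algebraMap F E)}
  zero_mem' g := ⟨0, by simp⟩
  add_mem' {a b} ha hb g := by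
    obtain ⟨x, hx⟩ := ha g
    obtain ⟨y, hy⟩ := hb g
    exact ⟨x + y, by rw [map_add, map_add, hx, hy]; ring⟩
  smul_mem' t a ha g := by
    obtain ⟨x, hx⟩ := ha g
    exact ⟨t * x, by rw [map_mul, hx, map_smul, ← Algebra.smul_def, smul_sub]⟩

theorem jSpace_ne_top (hr : (Module.finrank F E).Prime) (h3 : 3 ≤ Module.finrank F E) :
    jSpace F E ≠ ⊤ := by
  intro htop
  obtain ⟨g, hg⟩ : ∃ g : Gal', g ≠ 1 := by
    by_contra h
    push Not at h
    have : Subsingleton Gal' := ⟨fun a b => by rw [h a, h b]⟩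
    have := Finite.card_le_one_iff_subsingleton.2 this
    rw [natCard_gal] at this
    omega
  set d : E →ₗ[F] E := g.toLinearMap - LinearMap.id with hd
  have hker : LinearMap.ker d ≤ Submodule.span F {1} := fun x hx => by
    obtain ⟨t, ht⟩ := mem_range_of_fixed hr hg (x := x) (sub_eq_zero.1 (LinearMap.mem_ker.1 hx))
    exact Submodule.mem_span_singleton.2 ⟨t, by rw [← ht, Algebra.algebraMap_eq_smul_one]⟩
  have hran : LinearMap.range d ≤ Submodule.span F {1} := by
    rintro _ ⟨x, rfl⟩
    obtain ⟨t, ht⟩ := (htop ▸ Submodule.mem_top : x ∈ jSpace F E) g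
    exact Submodule.mem_span_singleton.2 ⟨t, by rw [← Algebra.algebraMap_eq_smul_one, ht]; rfl⟩
  have h1 := LinearMap.finrank_range_add_finrank_ker d
  have h2 := Submodule.finrank_mono hker
  have h3 := Submodule.finrank_mono hran
  rw [finrank_span_singleton (one_ne_zero (α := E))] at h2 h3
  omega

/-- A non-trivial automorphism moving `c` into the base field puts it in `jSpace`. -/
theorem mem_jSpace (hr : (Module.finrank F E).Prime) {c : E} {g : Gal'} (hg : g ≠ 1) {β : F}
    (hc : g c = c + algebraMap F E β) : ∀ h : Gal', ∃ i : ℕ, h c = c + algebraMap F E (i • β) := by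
  intro h
  haveI : Fact (Module.finrank F E).Prime := ⟨hr⟩
  obtain ⟨i, rfl⟩ := (Submonoid.mem_powers_iff _ _).1
    (mem_powers_of_prime_card (g' := h) natCard_gal hg)
  refine ⟨i, ?_⟩
  induction i with
  | zero => simp
  | succ i ih =>
    rw [pow_succ', AlgEquiv.mul_apply, ih, map_add, AlgEquiv.commutes, hc, succ_nsmul', map_add]
    ring

/-- No non-trivial automorphism shifts an element by every element of `F`. -/
theorem not_all_shifts (H : UCtx hF τ fE M) {c : E}
    (h : ∀ f : F, f ≠ 0 → ∃ g : Gal', g c = c + algebraMap F E f) : False := by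
  obtain ⟨g, hg⟩ := h 1 one_ne_zero
  have hg1 : g ≠ 1 := fun e => by simp [e] at hg
  obtain ⟨p, hp⟩ := CharP.exists F
  have : Fact p.Prime := ⟨CharP.char_is_prime F p⟩
  have hall : ∀ f : F, ∃ i : ℕ, (i : F) = f := fun f => by
    rcases eq_or_ne f 0 with rfl | hf
    · exact ⟨0, Nat.cast_zero⟩
    obtain ⟨g', hg'⟩ := h f hf
    obtain ⟨i, hi⟩ := mem_jSpace H.prime hg1 hg g'
    refine ⟨i, (algebraMap F E).injective ?_⟩
    rw [hg', nsmul_one] at hi
    exact (add_left_cancel hi).symm
  have hsurj : Function.Surjective (ZMod.castHom (dvd_refl p) F) := fun f => by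
    obtain ⟨i, hi⟩ := hall f
    exact ⟨i, by rw [map_natCast, hi]⟩
  have h1 := Nat.card_le_card_of_surjective _ hsurj
  rw [Nat.card_zmod, Nat.card_eq_fintype_card, hF] at h1
  have h2 : Nat.card (ZMod p) = p := Nat.card_zmod p
  have h3 : p ∣ q ^ 2 := hF ▸ (CharP.cast_eq_zero_iff F p _).1 (FiniteField.cast_card_eq_zero F)
  have h4 := Nat.le_of_dvd (by have := H.two_le; omega) ((Fact.out : p.Prime).dvd_of_dvd_pow h3)
  have := H.two_le
  nlinarith

end Cfsg.Agent.H66.UField
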