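import Cfsg.Agent.H66.UField.Main
import Cfsg.Agent.H58.ExtField.Field
import Cfsg.Agent.H98.MaximalBase

/-!
# The normaliser of an adjoint-closed extension field of prime degree is maximal in the unitary group
-/

set_option autoImplicit false
set_option linter.unusedSectionVars false
set_option linter.unusedVariables false
set_option linter.style.haveILetI false

namespace Cfsg.Agent.H66.UField

open scoped Matrix
open Cfsg.Geo Cfsg.Agent.H58.ExtField Cfsg.Agent.H98

/-- The number of norm one elements does not divide `(q² - 1)²`. -/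
theorem not_dvd_sq_pred {q r : ℕ} (hq : 2 ≤ q) (hr : 3 ≤ r) (hr4 : r ≠ 4) (hex : ¬ (q = 2 ∧ r = 3)) :
    ¬ (q ^ r + 1) ∣ (q ^ 2 - 1) ^ 2 := by
  intro hd
  have hpos : 0 < (q ^ 2 - 1) ^ 2 := by
    have : 4 ≤ q ^ 2 := by nlinarith
    exact pow_pos (by omega) 2
  have hlt : (q ^ 2 - 1) ^ 2 < q ^ 4 := by
    rw [show q ^ 4 = (q ^ 2) ^ 2 by ring]
    exact Nat.pow_lt_pow_left (by have : 0 < q ^ 2 := by positivity
                                  omega) two_ne_zero
  have hle := Nat.le_of_dvd hpos hd
  rcases (show r = 3 ∨ 5 ≤ r by omega) with rfl | h5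
  · have hq3 : 3 ≤ q := by omega
    obtain ⟨a, ha⟩ : ∃ a, q ^ 2 = a + 1 := ⟨q ^ 2 - 1, by have : 0 < q ^ 2 := by positivity
                                                          omega⟩
    rw [ha, Nat.add_sub_cancel] at hd
    have e : a ^ 2 + (2 * q ^ 2 + q - 1) = q * (q ^ 3 + 1) := by
      zify [show 1 ≤ 2 * q ^ 2 + q by nlinarith]
      have ha' : (q : ℤ) ^ 2 = a + 1 := by exact_mod_cast ha
      linear_combination (-((q : ℤ) ^ 2) - a + 1) * ha'
    have h2 : q ^ 3 + 1 ∣ 2 * q ^ 2 + q - 1 :=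
      (Nat.dvd_add_right hd).1 (e ▸ Dvd.intro_left q rfl)
    have h3 := Nat.le_of_dvd (by have : 0 < q ^ 2 := by positivity
                                 omega) h2
    have h4 : 3 * q ^ 2 ≤ q ^ 3 := by nlinarith
    have h6 : q ≤ q ^ 2 := Nat.le_self_pow two_ne_zero q
    omega
  · have : q ^ 4 ≤ q ^ r := Nat.pow_le_pow_right (by omega) (by omega)
    omega

variable {n q : ℕ} {F : Type*} [Field F] [Fintype F]

/-- Unitary scalars of norm one outside the base field. -/
theorem exists_eps {E : Type*} [Field E] [Fintype E] [Algebra F E] (hF : Fintype.card F = q ^ 2)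
    {τ : E ≃+* E} (hinv : Invol (Herm.frobQ hF) τ) (hfix : Nat.card (Fx τ) = q ^ Module.finrank F E)
    (hq : 2 ≤ q) (hr : (Module.finrank F E).Prime) (h3 : 3 ≤ Module.finrank F E)
    (hex : ¬ (q = 2 ∧ Module.finrank F E = 3)) :
    ∃ ε : E, ε * τ ε = 1 ∧ Algebra.norm F ε = 1 ∧ ε ∉ Set.range (algebraMap F E) := by
  classical
  set r := Module.finrank F E with hr'
  by_contra hc
  push Not at hc
  let φ : Eˣ →* Eˣ := MonoidHom.id Eˣ / Units.map (τ : E →+* E).toMonoidHom
  have hφ : ∀ x : Eˣ, ((φ x : Eˣ) : E) = (x : E) / τ (x : E) := fun x => by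
    rw [MonoidHom.div_apply, MonoidHom.id_apply, Units.val_div_eq_div_val]; rfl
  have hker : Nat.card φ.ker = q ^ r - 1 := by
    have e : φ.ker ≃ {x : Fx τ // x ≠ 0} :=
      { toFun := fun x => ⟨⟨(x.1 : E), by
          have h1 : ((φ x.1 : Eˣ) : E) = 1 := by rw [x.2, Units.val_one]
          rw [hφ, div_eq_one_iff_eq ((map_ne_zero_iff τ τ.injective).2 x.1.ne_zero)] at h1
          exact h1.symm⟩, fun h => x.1.ne_zero (congrArg (fun z : Fx τ => (z : E)) h)⟩
        invFun := fun x => ⟨Units.mk0 (x.1 : E) (fun h => x.2 (Subtype.ext h)), Units.ext (by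
          rw [hφ, Units.val_mk0, mem_Fx.1 x.1.2, Units.val_one, div_self (fun h => x.2 (Subtype.ext h))])⟩
        left_inv := fun x => Subtype.ext (Units.ext rfl)
        right_inv := fun x => Subtype.ext (Subtype.ext rfl) }
    rw [Nat.card_congr e, ← hfix, Nat.card_eq_fintype_card, Nat.card_eq_fintype_card,
      Fintype.card_subtype_compl, Fintype.card_subtype_eq]
  have hrange : Nat.card φ.range = q ^ r + 1 := by
    have h1 := Subgroup.card_mul_index φ.ker
    rw [Subgroup.index_ker, hker, Nat.card_units, card_E F E, hF, ← hr'] at h1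
    have h2 : 1 < q ^ r := Nat.one_lt_pow (by omega) (by omega)
    have h3' : (q ^ 2) ^ r - 1 = (q ^ r - 1) * (q ^ r + 1) := by
      rw [← pow_mul, mul_comm, pow_mul, mul_comm, ← one_pow 2, Nat.sq_sub_sq, one_pow]
    rw [h3'] at h1
    exact Nat.eq_of_mul_eq_mul_left (by omega) h1
  obtain ⟨g, hg⟩ : ∃ g : E ≃ₐ[F] E, ∀ x, g x = x ^ Fintype.card F :=
    ⟨FiniteField.frobeniusAlgEquivOfAlgebraic F E, fun x => by simp⟩
  have hpow : ∀ u ∈ φ.range, u ^ ((q ^ 2 - 1) ^ 2) = 1 := by
    rintro _ ⟨x, rfl⟩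
    have hu : ((φ x : Eˣ) : E) * τ ((φ x : Eˣ) : E) = 1 := by
      rw [hφ, map_div₀, hinv.invol]
      field_simp [x.ne_zero]
    have hu0 : ((φ x : Eˣ) : E) ≠ 0 := Units.ne_zero _
    obtain ⟨f, hf⟩ := hc (g ((φ x : Eˣ) : E) / ((φ x : Eˣ) : E))
      (by rw [map_div₀, tau_aut, div_mul_div_comm, ← map_mul, hu, map_one, div_one])
      (by
        rw [div_eq_mul_inv, map_mul, Algebra.norm_eq_of_algEquiv g, ← map_mul, mul_inv_cancel₀ hu0, map_one])
    have hf0 : f ≠ 0 := fun h => by
      rw [h, map_zero] at hf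
      exact div_ne_zero ((map_ne_zero_iff g g.injective).2 hu0) hu0 hf.symm
    have hs : ((φ x : Eˣ) : E) ^ (q ^ 2 - 1) = algebraMap F E f := by
      rw [hf, hg, hF, eq_div_iff hu0, ← pow_succ, Nat.sub_add_cancel (Nat.one_le_pow 2 q (by omega))]
    refine Units.ext ?_
    rw [Units.val_pow_eq_pow_val, pow_two (q ^ 2 - 1), pow_mul, hs, ← map_pow, ← hF,
      FiniteField.pow_card_sub_one_eq_one f hf0, map_one, Units.val_one]
  obtain ⟨u, hu⟩ := IsCyclic.exists_ofOrder_eq_natCard (α := φ.range)
  rw [hrange] at hu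
  refine not_dvd_sq_pred hq h3 (fun e => by rw [e] at hr; exact absurd hr (by decide)) hex ?_
  rw [← hu]
  exact orderOf_dvd_of_pow_eq_one (Subtype.ext (hpow u.1 u.2))

/-- For `q = 2`, `r = 3` there are norm one scalars outside the base field. -/
theorem exists_eps_small {E : Type*} [Field E] [Fintype E] [Algebra F E] (hF : Fintype.card F = q ^ 2)
    {τ : E ≃+* E} (hinv : Invol (Herm.frobQ hF) τ) (hfix : Nat.card (Fx τ) = q ^ Module.finrank F E)
    (hq : 2 ≤ q) (h3 : 3 ≤ Module.finrank F E) :
    ∃ ε : E, ε * τ ε = 1 ∧ ε ∉ Set.range (algebraMap F E) := by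
  classical
  obtain ⟨ζ, hζσ, hdec⟩ := hinv.decomp
  by_contra hc
  push Not at hc
  have hinj : Function.Injective fun x : Fx τ => (algebraMap F E ζ + (x : E)) := fun a b e =>
    Subtype.ext (add_left_cancel e)
  have hmem : ∀ x : Fx τ, ∃ f : F, algebraMap F E f =
      (algebraMap F E ζ + (x : E)) / τ (algebraMap F E ζ + (x : E)) := fun x => by
    refine hc _ ?_
    by_cases h0 : algebraMap F E ζ + (x : E) = 0
    · exfalso
      have h1 := congrArg τ h0
      rw [map_add, mem_Fx.1 x.2, map_zero, hinv.compat] at h1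
      exact hζσ ((algebraMap F E).injective (by linear_combination h1 - h0))
    · rw [map_div₀, hinv.invol, div_mul_div_comm, mul_comm, div_self (mul_ne_zero ((map_ne_zero_iff τ τ.injective).2 h0) h0)]
  choose f hf using hmem
  have h1 := Nat.card_le_card_of_injective f fun a b hab => by
    have ha := hf a
    have hb := hf b
    rw [hab, hb] at ha
    have hz : ∀ x : Fx τ, τ (algebraMap F E ζ + (x : E)) ≠ 0 := fun x h0 => by
      have h2 : algebraMap F E ζ + (x : E) = 0 := (map_eq_zero_iff τ τ.injective).1 h0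
      have h4 := congrArg τ h2
      rw [map_add, mem_Fx.1 x.2, map_zero, hinv.compat] at h4
      exact hζσ ((algebraMap F E).injective (by linear_combination h4 - h2))
    rw [div_eq_div_iff (hz b) (hz a)] at ha
    simp only [map_add, mem_Fx.1 a.2, mem_Fx.1 b.2, hinv.compat] at ha
    have hne : algebraMap F E ζ - algebraMap F E (Herm.frobQ hF ζ) ≠ 0 := by
      rw [← map_sub]; simpa [sub_eq_zero] using Ne.symm hζσ
    exact Subtype.ext (mul_left_cancel₀ hne (by linear_combination ha))
  rw [hfix, Nat.card_eq_fintype_card, hF] at h1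
  exact absurd ((Nat.pow_le_pow_iff_right (show 1 < q by omega)).1 h1) (by omega)

/-- The normaliser of an adjoint-closed field of odd prime degree is maximal in the special unitary group;
for `q = 2`, `r = 3` the dimension over the field has to be at least three. -/
theorem field_maximal_su' (hF : Fintype.card F = q ^ 2) {r : ℕ} (hr : r.Prime) (hodd : Odd r) (hlt : r < n)
    (hex : q = 2 → r = 3 → 2 * r < n) {K : Subalgebra F (Matrix (Fin n) (Fin n) F)} (hK : IsFieldSubalgebra r K)
    (hac : IsAdjointClosedFor (Cfsg.hermForm n F q) K) :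
    IsMaximalIn (Cfsg.GU n F q ⊓ specialLinear (Fin n) F)
      (subalgebraNormalizer K ⊓ (Cfsg.GU n F q ⊓ specialLinear (Fin n) F)) := by
  classical
  have : Nonempty (Fin n) := ⟨⟨0, by omega⟩⟩
  have hr3 : 3 ≤ r := by
    rcases hr.two_le.lt_or_eq with h | h
    · omega
    · subst h; exact absurd hodd (by decide)
  have hfr : Module.finrank F (FK hK) = r := FK.finrank_eq hK
  have hf := Herm.isUnitary_std (n := n) hF
  have hn : r * Module.finrank (FK hK) (Fin n → F) = n := by
    have := Module.finrank_mul_finrank F (FK hK) (Fin n → F)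
    rwa [hfr, Module.finrank_fintype_fun_eq_card, Fintype.card_fin] at this
  have hindep : ∀ v : Fin n → F, ∃ w : Fin n → F, w ∉ Submodule.span (FK hK) {v} := by
    intro v
    by_contra h
    push Not at h
    have h1 : Module.finrank (FK hK) (Fin n → F) ≤ 1 :=
      finrank_le_one v fun w => Submodule.mem_span_singleton.1 (h w)
    have h2 := Nat.mul_le_mul_left r h1
    omega
  have hn4 : 4 ≤ n := by omega
  -- the adjoint
  have hadj : ∀ c : FK hK, ∃ c' : FK hK, ∀ u v : Fin n → F,
      Cfsg.hermForm n F q (c • u) v = Cfsg.hermForm n F q u (c' • v) := fun c => by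
    obtain ⟨k', hk', he⟩ := hac c.mat (c : ↥K).2
    exact ⟨FK.mk hK k' hk', fun u v => by rw [FK.smul_eq, FK.smul_eq]; exact he u v⟩
  choose τ₀ hτ₀ using hadj
  have huniq : ∀ c d : FK hK, (∀ u v : Fin n → F,
      Cfsg.hermForm n F q (c • u) v = Cfsg.hermForm n F q u (d • v)) → τ₀ c = d := fun c d he => by
    obtain ⟨x, hx⟩ := exists_ne (0 : Fin n → F)
    refine smul_left_injective (FK hK) hx (sub_eq_zero.1 (Classical.byContradiction fun hne => ?_))
    obtain ⟨⟨y, hy⟩, -⟩ := hf.nondegenerate _ hne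
    refine hy ?_
    rw [Herm.sub_right hf, ← hτ₀ c y x, ← he, sub_self]
  have hinvol : ∀ c, τ₀ (τ₀ c) = c := fun c => huniq _ _ fun u v => by
    rw [← Herm.sigma_apply hf v (τ₀ c • u), ← hτ₀ c v u, Herm.sigma_apply hf]
  let τ : FK hK ≃+* FK hK :=
    { toFun := τ₀
      invFun := τ₀
      left_inv := hinvol
      right_inv := hinvol
      map_mul' := fun a b => huniq _ _ fun u v => by
        rw [← smul_smul a b u, hτ₀, hτ₀, smul_smul, mul_comm (τ₀ b)]
      map_add' := fun a b => huniq _ _ fun u v => by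
        rw [add_smul, add_smul, hf.add_left, Herm.add_right hf, hτ₀, hτ₀] }
  have hτalg : ∀ f : F, τ (algebraMap F (FK hK) f) = algebraMap F (FK hK) (Herm.frobQ hF f) := fun f =>
    huniq _ _ fun u v => by
      rw [algebraMap_smul, algebraMap_smul, hf.smul_left, Herm.smul_right hf, hf.involutive]
  have hinv : Invol (Herm.frobQ hF) τ := ⟨hinvol, hτalg, by
    by_contra h
    push Not at h
    exact hf.ne_refl (RingEquiv.ext fun x => by rw [h x, RingEquiv.refl_apply])⟩
  -- the form over the field
  choose fE hfE using fun x y : Fin n → F => exists_trace_rep (F := F) (E := FK hK)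
    ((Herm.fl hf y) ∘ₗ (LinearMap.toSpanSingleton (FK hK) (Fin n → F) x).restrictScalars F)
  have htr : ∀ x y c, Algebra.trace F (FK hK) (fE x y * c) = Cfsg.hermForm n F q (c • x) y :=
    fun x y c => (hfE x y c).symm
  have hte : ∀ {a b : FK hK}, (∀ c, Algebra.trace F (FK hK) (a * c) = Algebra.trace F (FK hK) (b * c)) → a = b :=
    fun h => sub_eq_zero.1 (eq_zero_of_trace (F := F) fun c => by rw [sub_mul, map_sub, h, sub_self])
  have hadd : ∀ x y z, fE (x + y) z = fE x z + fE y z := fun x y z => hte fun c => by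
    rw [add_mul, map_add, htr, htr, htr, smul_add, hf.add_left]
  have hsmul : ∀ (d : FK hK) x z, fE (d • x) z = d * fE x z := fun d x z => hte fun c => by
    rw [mul_comm d, mul_assoc, htr, htr, smul_smul, mul_comm c]
  have hherm : ∀ x y, fE y x = τ (fE x y) := fun x y => hte fun c => by
    rw [htr, show τ (fE x y) * c = τ (fE x y * τ c) by rw [map_mul, hinv.invol], hinv.tau_trace, htr,
      Herm.sigma_apply hf]
    exact hτ₀ c y x
  have hlin : ∀ g : GL (Fin n) F, ELin (FK hK) g → g ∈ subalgebraNormalizer K := by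
    intro g hg
    refine mem_normalizer_of_conj fun k hk => ?_
    have : (g : Matrix (Fin n) (Fin n) F) * k * ((g⁻¹ : GL (Fin n) F) : Matrix (Fin n) (Fin n) F) = k :=
      Matrix.ext_of_mulVec_single fun j => by
        rw [← Matrix.mulVec_mulVec, ← Matrix.mulVec_mulVec]
        have := hg (FK.mk hK k hk) (((g⁻¹ : GL (Fin n) F) : Matrix (Fin n) (Fin n) F) *ᵥ Pi.single j 1)
        rw [FK.smul_eq, FK.smul_eq, H98.gl_mulVec_inv] at this
        exact this
    rwa [this]
  have hsemi : ∀ g : GL (Fin n) F, Semi (FK hK) g → g ∈ subalgebraNormalizer K := by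
    intro g hg
    refine mem_normalizer_of_conj fun k hk => ?_
    obtain ⟨d, hd⟩ := hg (FK.mk hK k hk)
    have : (g : Matrix (Fin n) (Fin n) F) * k * ((g⁻¹ : GL (Fin n) F) : Matrix (Fin n) (Fin n) F) = d.mat :=
      Matrix.ext_of_mulVec_single fun j => by
        rw [← Matrix.mulVec_mulVec, ← Matrix.mulVec_mulVec]
        have := hd (((g⁻¹ : GL (Fin n) F) : Matrix (Fin n) (Fin n) F) *ᵥ Pi.single j 1)
        rw [FK.smul_eq, FK.smul_eq, H98.gl_mulVec_inv] at this
        exact this
    rw [this]
    exact (d : ↥K).2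
  have hq : 2 ≤ q := Cfsg.Agent.H3.two_le_q hF
  refine H98.isMaximalIn_of inf_le_right ?_ fun M hHM hMK g hg hgH => ?_
  · -- a transvection is not semilinear
    obtain ⟨c, hc⟩ : ∃ c : FK hK, c ∉ Set.range (algebraMap F (FK hK)) := by
      by_contra hall
      push Not at hall
      have h1 := LinearMap.finrank_range_le (Algebra.linearMap F (FK hK))
      rw [(LinearMap.range_eq_top (f := Algebra.linearMap F (FK hK))).2 hall, finrank_top, Module.finrank_self, hfr] at h1
      omega
    obtain ⟨e, he, e', -, hee, -, hee', -⟩ := Herm.exists_pair_in hf (⊤ : Submodule F (Fin n → F)) (by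
      rw [finrank_top, Module.finrank_fintype_fun_eq_card, Fintype.card_fin]; omega)
    have he0 : e ≠ 0 := fun h => zero_ne_one (α := F) (by rw [← hee', h, Herm.zero_left hf])
    obtain ⟨ζ, hζ0, hζ⟩ := Herm.exists_skew hf
    refine ⟨Herm.uT hf hee ζ, Herm.uT_mem_su hF hee hζ, fun h => ?_⟩
    let L : (Fin n → F) →ₗ[F] F × F := (Herm.fl hf e).prod
      (Herm.fl hf e ∘ₗ DistribSMul.toLinearMap F (Fin n → F) c)
    obtain ⟨z, hz, hz0⟩ : ∃ z ∈ LinearMap.ker L, z ≠ 0 :=
      Submodule.exists_mem_ne_zero_of_ne_bot fun hker => by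
        have := LinearMap.finrank_le_finrank_of_injective (LinearMap.ker_eq_bot.1 hker)
        rw [Module.finrank_fintype_fun_eq_card, Module.finrank_prod, Module.finrank_self, Fintype.card_fin] at this
        omega
    simp only [L, LinearMap.mem_ker, LinearMap.prod_apply, Function.prod_apply, Prod.mk_eq_zero,
      LinearMap.comp_apply, DistribSMul.toLinearMap_apply, Herm.fl_apply] at hz
    obtain ⟨d, hd⟩ : ∃ d : FK hK, ∀ x, (Herm.uT hf hee ζ : Matrix (Fin n) (Fin n) F) *ᵥ (c • x) =
        d • ((Herm.uT hf hee ζ : Matrix (Fin n) (Fin n) F) *ᵥ x) := by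
      refine ⟨FK.mk hK _ ((h.1 c.mat).1 (c : ↥K).2), fun x => ?_⟩
      rw [FK.smul_eq, FK.smul_eq]
      show _ = (_ * _ * _) *ᵥ _
      rw [← Matrix.mulVec_mulVec, ← Matrix.mulVec_mulVec, H98.gl_inv_mulVec]
    have hdc : d = c := by
      have := hd z
      rw [Herm.uT_mulVec, Herm.uT_mulVec, hz.1, hz.2, mul_zero, zero_smul, add_zero, add_zero] at this
      exact (smul_left_injective (FK hK) hz0 this).symm
    have h1 := hd e'
    have h2 : Cfsg.hermForm n F q e' e = 1 := by rw [← Herm.sigma_apply hf e e', hee', map_one]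
    rw [hdc, Herm.uT_mulVec, Herm.uT_mulVec, h2, mul_one, smul_add, add_right_inj,
      ← algebraMap_smul (FK hK) (ζ * _), ← algebraMap_smul (FK hK) ζ, smul_smul] at h1
    have h3 := smul_left_injective (FK hK) he0 h1
    refine hc ⟨Cfsg.hermForm n F q (c • e') e, mul_left_cancel₀ (show algebraMap F (FK hK) ζ ≠ 0 by simpa using hζ0) ?_⟩
    rw [← map_mul, h3, mul_comm]
  · have hfix : Nat.card (Fx τ) = q ^ Module.finrank F (FK hK) := card_Fx_of hF hinv
    have H : UCtx hF τ fE M :=
      { inv := hinv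
        prime := by rw [hfr]; exact hr
        three := by rw [hfr]; exact hr3
        four := hn4
        indep := hindep
        le_su := hMK
        add_left := hadd
        smul_left := hsmul
        herm := hherm
        htr := htr
        lin := fun g hg hl => hHM ⟨hlin g hl, hg⟩
        notSemi := ⟨g, hg, fun hs => hgH ⟨hsemi g hs, hMK hg⟩⟩
        exEps := by
          by_cases hbig : 2 * r < n
          · obtain ⟨ε, h1, h2⟩ := exists_eps_small hF hinv hfix hq (by rw [hfr]; exact hr3)
            refine ⟨ε, h1, h2, Or.inr fun a b => ?_⟩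
            by_contra hno
            push Not at hno
            have htop : Submodule.span (FK hK) ({a, b} : Set (Fin n → F)) = ⊤ := eq_top_iff.2 fun x _ => hno x
            have h3 := finrank_span_le_card (R := FK hK) ({a, b} : Set (Fin n → F))
            rw [htop, finrank_top] at h3
            have h4 : ({a, b} : Set (Fin n → F)).toFinset.card ≤ 2 := by
              simpa using Finset.card_le_two (a := a) (b := b)
            have h5 := Nat.mul_le_mul_left r (h3.trans h4)
            rw [mul_comm 2 r] at hbig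
            omega
          · obtain ⟨ε, h1, h2, h3⟩ := exists_eps hF hinv hfix hq (by rw [hfr]; exact hr) (by rw [hfr]; exact hr3)
              (by rw [hfr]; exact fun e => hbig (hex e.1 e.2))
            exact ⟨ε, h1, h3, Or.inl h2⟩ }
    exact H.su_le

/-- The normaliser of an adjoint-closed field of odd prime degree is maximal in the special unitary group. -/
theorem field_maximal_su (hF : Fintype.card F = q ^ 2) {r : ℕ} (hr : r.Prime) (hodd : Odd r) (hlt : r < n)
    (hex : ¬ (q = 2 ∧ r = 3)) {K : Subalgebra F (Matrix (Fin n) (Fin n) F)} (hK : IsFieldSubalgebra r K)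
    (hac : IsAdjointClosedFor (Cfsg.hermForm n F q) K) :
    IsMaximalIn (Cfsg.GU n F q ⊓ specialLinear (Fin n) F)
      (subalgebraNormalizer K ⊓ (Cfsg.GU n F q ⊓ specialLinear (Fin n) F)) :=
  field_maximal_su' hF hr hodd hlt (fun e1 e2 => absurd ⟨e1, e2⟩ hex) hK hac

end Cfsg.Agent.H66.UField
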