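import Cfsg.Agent.H66.UField.Base
import Cfsg.Agent.H58.ExtField.Count

/-!
# Overgroups of unitary groups over an extension field: the stabiliser of an isotropic line

The skew maps of the line of an isotropic `v` whose elements lie in `M` either are all of them or force the
stabiliser of `v` and of its line to act by field automorphisms.
-/

set_option autoImplicit false
set_option linter.unusedSectionVars false
set_option linter.unusedVariables false

namespace Cfsg.Agent.H66.UField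

open scoped Matrix
open Cfsg.Agent.H58.ExtField Cfsg.Agent.H98

variable {n q : ℕ} {F : Type*} [Field F] [Fintype F]
variable {E : Type*} [Field E] [Fintype E] [Algebra F E]
variable [Module E (Fin n → F)] [IsScalarTower F E (Fin n → F)]

local notation "Mat" => Matrix (Fin n) (Fin n) F
local notation "V" => (Fin n → F)

variable {hF : Fintype.card F = q ^ 2} {τ : E ≃+* E} {fE : (Fin n → F) → (Fin n → F) → E}
  {M : Subgroup (GL (Fin n) F)}

/-- The functional `z ↦ ψ (fE z v)`. -/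
noncomputable def vc (H : UCtx hF τ fE M) (v : Fin n → F) (ψ : E →ₗ[F] E) : (Fin n → F) →ₗ[F] E :=
  ψ ∘ₗ (fl H v).restrictScalars F

theorem vc_apply (H : UCtx hF τ fE M) (v : V) (ψ : E →ₗ[F] E) (z : V) : vc H v ψ z = ψ (fE z v) := rfl

theorem UCtx.kills_vc (H : UCtx hF τ fE M) {v : V} (hv : fE v v = 0) (ψ : E →ₗ[F] E) : Kills (vc H v ψ) v :=
  fun c => by rw [vc_apply, H.smul_left, hv, mul_zero, map_zero]

/-- Skew maps for `tr (x * τ y)`. -/
def Skew (τ : E ≃+* E) (ψ : E →ₗ[F] E) : Prop :=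
  ∀ a b, Algebra.trace F E (ψ a * τ b) + Algebra.trace F E (a * τ (ψ b)) = 0

theorem UCtx.conj_vc (H : UCtx hF τ fE M) {v : V} (hvv : fE v v = 0) {g : GL (Fin n) F} (hg : g ∈ M)
    {A A' : E →ₗ[F] E} (hA : ∀ x : E, (g : Mat) *ᵥ (x • v) = A x • v)
    (hA' : ∀ x y : E, Algebra.trace F E (A x * τ y) = Algebra.trace F E (x * τ (A' y))) {ψ : E →ₗ[F] E}
    (hψ : el v (vc H v ψ) ∈ M) : el v (vc H v (A ∘ₗ ψ ∘ₗ A')) ∈ M := by
  refine (H98.gl_ext fun z => ?_ : el v (vc H v (A ∘ₗ ψ ∘ₗ A')) = g * el v (vc H v ψ) * g⁻¹) ▸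
    mul_mem (mul_mem hg hψ) (inv_mem hg)
  have key : fE (((g⁻¹ : GL (Fin n) F) : Mat) *ᵥ z) v = A' (fE z v) := trace_ext' fun c => by
    have h1 : Cfsg.hermForm n F q (c • (((g⁻¹ : GL (Fin n) F) : Mat) *ᵥ z)) v =
        Cfsg.hermForm n F q z (A (τ c) • v) := by
      conv_rhs => rw [← hA, ← H98.gl_mulVec_inv g z, H.iso hg]
      rw [H.beta_eq, H.beta_eq, H.smul_left, H.smul_right, H.inv.invol]
    rw [H.htr, h1, H.beta_eq, H.smul_right]
    have h2 := congrArg (Herm.frobQ hF) (hA' (τ c) (fE z v))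
    rw [← H.inv.tau_trace, ← H.inv.tau_trace, map_mul τ, map_mul τ, H.inv.invol, H.inv.invol, H.inv.invol] at h2
    rw [h2, mul_comm]
  simp only [Units.val_mul, ← Matrix.mulVec_mulVec, el_mulVec (H.kills_vc hvv _), Matrix.mulVec_add,
    H98.gl_mulVec_inv, hA, vc_apply, LinearMap.comp_apply, key]
where
  trace_ext' {a b : E} (h : ∀ c, Algebra.trace F E (a * c) = Algebra.trace F E (b * c)) : a = b :=
    sub_eq_zero.1 (eq_zero_of_trace (F := F) fun c => by rw [sub_mul, map_sub, h, sub_self])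

theorem UCtx.skew_of_mem (H : UCtx hF τ fE M) {v : V} (hv : v ≠ 0) (hvv : fE v v = 0) {ψ : E →ₗ[F] E}
    (hψ : el v (vc H v ψ) ∈ M) : Skew τ ψ := by
  intro a b
  obtain ⟨z, hz⟩ := H.exists_value hv a
  obtain ⟨w, hw⟩ := H.exists_value hv b
  have h := H.iso hψ z w
  rw [el_mulVec (H.kills_vc hvv ψ), el_mulVec (H.kills_vc hvv ψ), vc_apply, vc_apply, hz, hw, H.beta_eq,
    H.beta_eq] at h
  simp only [H.add_left, H.add_right, H.smul_left, H.smul_right, hvv, hz, mul_zero, add_zero, map_add] at h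
  rw [H.herm w v, hw, mul_comm (τ (ψ b)) a] at h
  linear_combination h

/-- Every element of a finite field is a sum of two squares. -/
theorem exists_two_sq {K : Type*} [Field K] [Fintype K] (f : K) : ∃ a b : K, a * a + b * b = f := by
  by_cases h2 : ringChar K = 2
  · obtain ⟨a, ha⟩ := FiniteField.isSquare_of_char_two h2 f
    exact ⟨a, 0, by rw [ha]; ring⟩
  · obtain ⟨a, b, hab⟩ := FiniteField.exists_root_sum_quadratic (R := K) (f := Polynomial.X ^ 2)
      (g := Polynomial.X ^ 2 - Polynomial.C f) (Polynomial.degree_X_pow 2)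
      (Polynomial.degree_X_pow_sub_C (by decide) _) (FiniteField.odd_card_of_char_ne_two h2)
    simp only [Polynomial.eval_pow, Polynomial.eval_X, Polynomial.eval_sub, Polynomial.eval_C] at hab
    exact ⟨a, b, by linear_combination hab⟩

/-- A fixed scalar is a sum of two squares of fixed scalars. -/
theorem UCtx.exists_sq_sum (H : UCtx hF τ fE M) {f : F} (hf : Herm.frobQ hF f = f) :
    ∃ a b : F, Herm.frobQ hF a = a ∧ Herm.frobQ hF b = b ∧ a * a + b * b = f := by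
  classical
  set S : Subfield F := RingHom.eqLocusField (Herm.frobQ hF).toRingHom (RingHom.id F)
  have hS : ∀ x : F, x ∈ S ↔ Herm.frobQ hF x = x := fun x => Iff.rfl
  letI : Fintype S := Fintype.ofFinite _
  obtain ⟨a, b, hab⟩ := exists_two_sq (K := S) ⟨f, (hS f).2 hf⟩
  exact ⟨a, b, (hS a).1 a.2, (hS b).1 b.2, congrArg Subtype.val hab⟩

theorem UCtx.vc_mem_add (H : UCtx hF τ fE M) {v : V} (hvv : fE v v = 0) {ψ χ : E →ₗ[F] E}
    (h1 : el v (vc H v ψ) ∈ M) (h2 : el v (vc H v χ) ∈ M) : el v (vc H v (ψ + χ)) ∈ M := by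
  rw [show vc H v (ψ + χ) = vc H v ψ + vc H v χ from LinearMap.add_comp _ _ _,
    ← el_mul (H.kills_vc hvv ψ) (H.kills_vc hvv χ)]
  exact mul_mem h1 h2

theorem UCtx.vc_mem_zero (H : UCtx hF τ fE M) (v : V) : el v (vc H v 0) ∈ M := by
  rw [show vc H v (0 : E →ₗ[F] E) = 0 from LinearMap.zero_comp _, el_zero]
  exact one_mem _

theorem UCtx.vc_mem_smul (H : UCtx hF τ fE M) {v : V} (hv : v ≠ 0) (hvv : fE v v = 0) {f : F}
    (hf : Herm.frobQ hF f = f) {ψ : E →ₗ[F] E} (hψ : el v (vc H v ψ) ∈ M) : el v (vc H v (f • ψ)) ∈ M := by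
  have sq : ∀ a : F, Herm.frobQ hF a = a → el v (vc H v ((a * a) • ψ)) ∈ M := by
    intro a ha
    rcases eq_or_ne a 0 with rfl | ha0
    · rw [mul_zero, zero_smul]; exact H.vc_mem_zero v
    obtain ⟨g, hg, hgl, hgv⟩ := H.scale_fixed hv hvv (ρ := algebraMap F E a) (by simpa using ha0)
      (by rw [H.inv.compat, ha])
    have := H.conj_vc hvv hg (A := a • LinearMap.id) (A' := a • LinearMap.id)
      (fun x => by rw [hgl, hgv, smul_smul, LinearMap.smul_apply, LinearMap.id_apply, Algebra.smul_def, mul_comm])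
      (fun x y => by
        simp only [LinearMap.smul_apply, LinearMap.id_apply, H.inv.tau_smul, ha, smul_mul_assoc, mul_smul_comm])
      hψ
    convert this using 3
    exact LinearMap.ext fun x => by simp [smul_smul]
  obtain ⟨a, b, ha, hb, rfl⟩ := H.exists_sq_sum hf
  rw [add_smul]
  exact H.vc_mem_add hvv (sq a ha) (sq b hb)

/-- Some skew map of the line of `v` is missing. -/
def NoExtra (H : UCtx hF τ fE M) (v : Fin n → F) : Prop :=
  ∃ ψ : E →ₗ[F] E, Skew τ ψ ∧ el v (vc H v ψ) ∉ M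

/-- Without missing maps the line of `v` consists of centres. -/
theorem UCtx.centre_of_extra (H : UCtx hF τ fE M) {v : V} (hvv : fE v v = 0) (hno : ¬ NoExtra H v) (c : E) :
    c • v ∈ Herm.centres (Herm.isUnitary_std (n := n) hF) M := by
  simp only [NoExtra, not_exists, not_and, not_not] at hno
  have hcc : Cfsg.hermForm n F q (c • v) (c • v) = 0 := by
    rw [H.beta_eq, H.smul_left, H.smul_right, hvv, mul_zero, mul_zero, map_zero]
  refine ⟨hcc, fun d hd => ?_⟩
  set ψ : E →ₗ[F] E :=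
    (d • Algebra.trace F E ∘ₗ LinearMap.mulLeft F (τ c)).smulRight c with hψ
  have hψa : ∀ a, ψ a = (d * Algebra.trace F E (τ c * a)) • c := fun a => by simp [hψ]
  have hmem := hno ψ fun a b => by
    simp only [hψa, H.inv.tau_smul, smul_mul_assoc, mul_smul_comm, map_smul, smul_eq_mul, map_mul, hd]
    rw [← H.inv.tau_trace (τ c * b), map_mul τ, H.inv.invol, mul_comm a (τ c)]
    ring
  refine (H98.gl_ext fun z => ?_ : Herm.uT _ hcc d = el v (vc H v ψ)) ▸ hmem
  rw [Herm.uT_mulVec, el_mulVec (H.kills_vc hvv ψ), vc_apply, hψa, H.beta_eq, H.smul_right, smul_assoc]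

/-- The stabiliser of `v` and its line acts by field automorphisms. -/
theorem UCtx.line_aut (H : UCtx hF τ fE M) {v : V} (hv : v ≠ 0) (hvv : fE v v = 0) (hno : NoExtra H v)
    {g : GL (Fin n) F} (hg : g ∈ M) (h1 : (g : Mat) *ᵥ v = v)
    (h2 : ∀ c : E, (g : Mat) *ᵥ (c • v) ∈ Submodule.span E {v}) :
    ∃ σ : E ≃ₐ[F] E, ∀ c : E, (g : Mat) *ᵥ (c • v) = σ c • v := by
  classical
  obtain ⟨ψ₀, hsk, hψ₀⟩ := hno
  choose A hA using fun c => Submodule.mem_span_singleton.1 (h2 c)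
  have hinj : Function.Injective fun c : E => c • v := smul_left_injective E hv
  let AL : E →ₗ[F] E :=
    { toFun := A
      map_add' := fun a b => hinj (by
        show A (a + b) • v = (A a + A b) • v
        rw [add_smul, hA, hA, hA, add_smul, Matrix.mulVec_add])
      map_smul' := fun t a => hinj (by
        show A (t • a) • v = (t • A a) • v
        rw [hA, smul_assoc, smul_assoc, hA, Matrix.mulVec_smul]) }
  let G : Set (E →ₗ[F] E) := {B | ∃ k ∈ M, ∀ x : E, (k : Mat) *ᵥ (x • v) = B x • v}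
  obtain ⟨ζ, hζ0, hζs, hζτ, -⟩ := H.exists_skew
  obtain ⟨ξ, hξ⟩ := H.inv.moved
  have hsplit : ∀ f : F, ∃ a b : F, Herm.frobQ hF a = a ∧ Herm.frobQ hF b = b ∧ f = a + ξ * b := fun f => by
    have hne : ξ - Herm.frobQ hF ξ ≠ 0 := sub_ne_zero.2 (Ne.symm hξ)
    have e : Herm.frobQ hF ((f - Herm.frobQ hF f) / (ξ - Herm.frobQ hF ξ)) =
        (f - Herm.frobQ hF f) / (ξ - Herm.frobQ hF ξ) := by
      rw [map_div₀, map_sub, map_sub, H.inv.sigma_invol, H.inv.sigma_invol, ← neg_sub f, ← neg_sub ξ,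
        neg_div_neg_eq]
    refine ⟨f - ξ * ((f - Herm.frobQ hF f) / (ξ - Herm.frobQ hF ξ)), _, ?_, e, by ring⟩
    rw [map_sub, map_mul, e]
    field_simp
    ring
  obtain ⟨c0, c1, hc0, hc1, hξξ⟩ := hsplit (ξ * ξ)
  let W : Submodule F (E →ₗ[F] E) :=
    { carrier := {ψ | ∃ w w', el v (vc H v w) ∈ M ∧ el v (vc H v w') ∈ M ∧ ψ = w + ξ • w'}
      zero_mem' := ⟨0, 0, H.vc_mem_zero v, H.vc_mem_zero v, by simp⟩
      add_mem' := by
        rintro _ _ ⟨w, w', hw, hw', rfl⟩ ⟨u, u', hu, hu', rfl⟩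
        exact ⟨w + u, w' + u', H.vc_mem_add hvv hw hu, H.vc_mem_add hvv hw' hu', by module⟩
      smul_mem' := by
        rintro f _ ⟨w, w', hw, hw', rfl⟩
        obtain ⟨a, b, ha, hb, rfl⟩ := hsplit f
        refine ⟨a • w + (b * c0) • w', b • w + (a + b * c1) • w',
          H.vc_mem_add hvv (H.vc_mem_smul hv hvv ha hw) (H.vc_mem_smul hv hvv (by rw [map_mul, hb, hc0]) hw'),
          H.vc_mem_add hvv (H.vc_mem_smul hv hvv hb hw)
            (H.vc_mem_smul hv hvv (by rw [map_add, map_mul, ha, hb, hc1]) hw'), ?_⟩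
        rw [smul_add, smul_smul, show (a + ξ * b) * ξ = b * c0 + ξ * (a + b * c1) by linear_combination b * hξξ]
        module }
  obtain ⟨ε, hε, hεF, hεN⟩ := H.exEps
  have hε1 : 1 + ε ≠ 0 := fun e => hεF ⟨-1, by rw [map_neg, map_one]; linear_combination -e⟩
  have hratio : τ (1 + ε) * ε = 1 + ε := by rw [map_add, map_one]; linear_combination hε
  have hτε1 : τ (1 + ε) ≠ 0 := (map_ne_zero_iff τ τ.injective).2 hε1
  have hscale : ∀ ρ : E, ρ ≠ 0 → (τ ρ = ρ ∨ ρ = 1 + ε) →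
      ∃ s ∈ M, ELin E s ∧ (s : Mat) *ᵥ v = ρ • v := by
    rintro ρ hρ (hfix | rfl)
    · exact H.scale_fixed hv hvv hρ hfix
    · exact H.exists_scaling_eps hε hε1 hεN hv hvv
  obtain ⟨c, σ, hσ⟩ := semilinear_of_invariant H.inv H.prime W
    (fun c => by
      obtain ⟨ξ', hξ', hdec⟩ := H.inv.decomp
      obtain ⟨a, b, ha, hb, hab⟩ := hdec (c / algebraMap F E ζ)
      have hmul : ∀ s : E, τ s = -s → el v (vc H v (LinearMap.mulLeft F s)) ∈ M := fun s hs => by
        have := H.ts_mem hvv hs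
        exact this
      have hsk' : ∀ x : E, τ x = x → τ (algebraMap F E ζ * x) = -(algebraMap F E ζ * x) := fun x hx => by
        rw [map_mul, hζτ, hx, neg_mul]
      have : LinearMap.mulLeft F c = LinearMap.mulLeft F (algebraMap F E ζ * a) +
          ξ' • LinearMap.mulLeft F (algebraMap F E ζ * b) := LinearMap.ext fun x => by
        have hc : c = algebraMap F E ζ * (a + ξ' • b) := by
          rw [← hab, mul_div_cancel₀ _ (by simpa using hζ0)]
        simp [hc, add_mul, mul_add, mul_assoc]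
      rw [this]
      refine W.add_mem ⟨_, 0, hmul _ (hsk' a ha), H.vc_mem_zero v, by simp⟩
        (W.smul_mem _ ⟨_, 0, hmul _ (hsk' b hb), H.vc_mem_zero v, by simp⟩))
    (fun htop => by
      obtain ⟨w, w', hw, hw', he⟩ := (htop ▸ Submodule.mem_top : ψ₀ ∈ W)
      have hw0 : w' = 0 := LinearMap.ext fun a => eq_zero_of_trace (F := F) fun b => by
        have h3 := hsk a (τ b)
        have h4 := H.skew_of_mem hv hvv hw a (τ b)
        have h5 := H.skew_of_mem hv hvv hw' a (τ b)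
        simp only [he, LinearMap.add_apply, LinearMap.smul_apply, map_add, H.inv.tau_smul, add_mul, mul_add,
          smul_mul_assoc, mul_smul_comm, map_smul, smul_eq_mul, H.inv.invol] at h3 h4 h5
        refine (mul_eq_zero.1 ?_).resolve_left (sub_ne_zero.2 (Ne.symm hξ))
        linear_combination h3 - h4 - Herm.frobQ hF ξ * h5
      exact hψ₀ (by rw [he, hw0, smul_zero, add_zero]; exact hw))
    (ρ₀ := 1 + ε) (fun g hg he => hεF (by
      have h3 : g ε = ε := by
        have h4 := congrArg g hratio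
        rw [map_mul] at h4
        refine mul_left_cancel₀ (mul_ne_zero hτε1 (g.injective.ne hτε1 |>.trans_eq (map_zero g))) ?_
        linear_combination (τ (1 + ε)) * h4 + g (τ (1 + ε)) * (-hratio) - he
      rcases (Subalgebra.isSimpleOrder_of_finrank_prime F E H.prime).eq_bot_or_eq_top
        (AlgHom.equalizer (g : E →ₐ[F] E) (AlgHom.id F E)) with h0 | h0
      · exact Algebra.mem_bot.1 (h0 ▸ (h3 : ε ∈ AlgHom.equalizer (g : E →ₐ[F] E) (AlgHom.id F E)) :
          ε ∈ (⊥ : Subalgebra F E))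
      · exact absurd (AlgEquiv.ext (f := g) (g := 1) fun y =>
          (show y ∈ AlgHom.equalizer (g : E →ₐ[F] E) (AlgHom.id F E) from h0 ▸ Algebra.mem_top))
          hg))
    G
    (fun B hB B' hB' ρ hρ hfix => by
      obtain ⟨k, hk, hkB⟩ := hB
      obtain ⟨k', hk', hkB'⟩ := hB'
      obtain ⟨s, hs, hsl, hsv⟩ := hscale ρ hρ (Or.inl hfix)
      refine ⟨k * (s * k'), mul_mem hk (mul_mem hs hk'), fun x => ?_⟩
      simp only [Units.val_mul, ← Matrix.mulVec_mulVec, LinearMap.comp_apply, LinearMap.mulLeft_apply]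
      rw [hkB', hsl, hsv, smul_smul, mul_comm, hkB])
    (fun B hB ρ hρ hor => by
      obtain ⟨k, hk, hkB⟩ := hB
      obtain ⟨s, hs, hsl, hsv⟩ := hscale ρ hρ hor
      refine ⟨s * k, mul_mem hs hk, fun x => ?_⟩
      simp only [Units.val_mul, ← Matrix.mulVec_mulVec, LinearMap.comp_apply, LinearMap.mulLeft_apply]
      rw [hkB, hsl, hsv, smul_smul, mul_comm])
    (fun B hB B' hB' ψ hψ => by
      obtain ⟨k, hk, hkB⟩ := hB
      obtain ⟨w, w', hw, hw', rfl⟩ := hψ
      exact ⟨_, _, H.conj_vc hvv hk hkB hB' hw, H.conj_vc hvv hk hkB hB' hw',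
        LinearMap.ext fun x => by simp⟩)
    (A := AL) ⟨g, hg, fun x => (hA x).symm⟩
  have hc : c = 1 := by
    have := hσ 1
    rw [map_one σ, mul_one] at this
    refine hinj ?_
    show c • v = (1 : E) • v
    rw [← this]
    show A 1 • v = _
    rw [hA, one_smul, h1]
  refine ⟨σ, fun x => ?_⟩
  have e : A x = σ x := by
    have := hσ x
    rw [hc, one_mul] at this
    exact this
  rw [← hA, e]

/-- A `p`-group fixing the line of `v` pointwise, with the line as its fixed points. -/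
def qGroup (H : UCtx hF τ fE M) (v : Fin n → F) : Subgroup (GL (Fin n) F) where
  carrier := {g | g ∈ M ∧ (∀ a : E, (g : Matrix (Fin n) (Fin n) F) *ᵥ (a • v) = a • v) ∧
    (∀ z, fE z v = 0 → (g : Matrix (Fin n) (Fin n) F) *ᵥ z - z ∈ Submodule.span E {v}) ∧
    ∀ z, fE ((g : Matrix (Fin n) (Fin n) F) *ᵥ z - z) v = 0}
  mul_mem' := by
    rintro g h ⟨g0, g1, g2, g3⟩ ⟨h0, h1, h2, h3⟩
    have e : ∀ z, ((g * h : GL (Fin n) F) : Mat) *ᵥ z - z =
        ((g : Mat) *ᵥ ((h : Mat) *ᵥ z) - (h : Mat) *ᵥ z) + ((h : Mat) *ᵥ z - z) := fun z => by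
      rw [Units.val_mul, ← Matrix.mulVec_mulVec]; abel
    refine ⟨mul_mem g0 h0, fun a => by rw [Units.val_mul, ← Matrix.mulVec_mulVec, h1, g1], fun z hz => ?_,
      fun z => ?_⟩
    · rw [e]
      refine add_mem (g2 _ ?_) (h2 z hz)
      have := h3 z
      rwa [H.sub_left, hz, sub_zero] at this
    · rw [e, H.add_left, g3, h3, add_zero]
  one_mem' := ⟨one_mem _, fun a => by simp, fun z _ => by simp, fun z => by simp [H.zero_left]⟩
  inv_mem' := by
    rintro g ⟨g0, g1, g2, g3⟩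
    have e : ∀ z, ((g⁻¹ : GL (Fin n) F) : Mat) *ᵥ z - z =
        -((g : Mat) *ᵥ (((g⁻¹ : GL (Fin n) F) : Mat) *ᵥ z) - ((g⁻¹ : GL (Fin n) F) : Mat) *ᵥ z) := fun z => by
      rw [H98.gl_mulVec_inv]; abel
    refine ⟨inv_mem g0, fun a => by conv_lhs => rw [← g1 a, H98.gl_inv_mulVec], fun z hz => ?_, fun z => ?_⟩
    · rw [e]
      refine neg_mem (g2 _ ?_)
      have := g3 (((g⁻¹ : GL (Fin n) F) : Mat) *ᵥ z)
      rwa [H98.gl_mulVec_inv, H.sub_left, hz, zero_sub, neg_eq_zero] at this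
    · rw [e, neg_sub, H.sub_left, sub_eq_zero, eq_comm, ← sub_eq_zero, ← H.sub_left]
      exact g3 _

theorem isPGroup_qGroup {p : ℕ} [CharP F p] (H : UCtx hF τ fE M) (v : V) : IsPGroup p (qGroup H v) := by
  rintro ⟨g, hg⟩
  refine ⟨2, Subtype.ext ?_⟩
  rw [SubgroupClass.coe_pow, OneMemClass.coe_one]
  show g ^ p ^ 2 = 1
  have iter : ∀ (k : GL (Fin n) F) (z : V) (i : ℕ),
      (k : Mat) *ᵥ ((k : Mat) *ᵥ z - z) = (k : Mat) *ᵥ z - z →
      ((k ^ i : GL (Fin n) F) : Mat) *ᵥ z = z + i • ((k : Mat) *ᵥ z - z) := by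
    intro k z i hfix
    induction i with
    | zero => simp
    | succ i ih =>
      rw [pow_succ', Units.val_mul, ← Matrix.mulVec_mulVec, ih, Matrix.mulVec_add, Matrix.mulVec_smul, hfix,
        succ_nsmul']
      abel
  have hp : ∀ d : V, p • d = 0 := fun d => by
    rw [← Nat.cast_smul_eq_nsmul F, CharP.cast_eq_zero, zero_smul]
  have h1 : ∀ z, fE z v = 0 → ((g ^ p : GL (Fin n) F) : Mat) *ᵥ z = z := fun z hz => by
    obtain ⟨a, ha⟩ := Submodule.mem_span_singleton.1 (hg.2.2.1 z hz)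
    rw [iter g z p (by rw [← ha, hg.2.1]), hp, add_zero]
  refine H98.gl_ext fun z => ?_
  rw [pow_two, pow_mul, iter (g ^ p) z p (h1 _ ((pow_mem hg p : g ^ p ∈ qGroup H v).2.2.2 z)), hp, add_zero,
    Units.val_one, Matrix.one_mulVec]

theorem UCtx.ts_mem_q (H : UCtx hF τ fE M) {v : V} (hvv : fE v v = 0) {d : E} (hd : τ d = -d) :
    ts H v d ∈ qGroup H v := by
  refine ⟨H.ts_mem hvv hd, fun a => ?_, fun z hz => ?_, fun z => ?_⟩
  · simp [H.ts_mulVec hvv, H.smul_left, hvv]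
  · simp [H.ts_mulVec hvv, hz]
  · simp [H.ts_mulVec hvv, H.smul_left, hvv]

theorem UCtx.ei_mem_q (H : UCtx hF τ fE M) {v u : V} (hvv : fE v v = 0) (huv : fE u v = 0) {γ : E}
    (hγ : γ + τ γ + fE u u = 0) : ei H v u γ ∈ qGroup H v := by
  refine ⟨H.ei_mem hvv huv hγ, fun a => ?_, fun z hz => ?_, fun z => ?_⟩
  · simp [H.ei_mulVec hvv huv, H.smul_left, hvv, H.eq_zero_comm.1 huv]
  · rw [H.ei_mulVec hvv huv, hz, zero_smul, add_zero, sub_sub_cancel_left]
    exact neg_mem (Submodule.smul_mem _ _ (Submodule.mem_span_singleton_self v))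
  · simp [H.ei_mulVec hvv huv, H.smul_left, H.add_left, H.sub_left, hvv, huv]

/-- A conjugation inside the line of `v` agrees with a field automorphism. -/
theorem UCtx.conj_aut (H : UCtx hF τ fE M) {v : V} (hv : v ≠ 0) (hvv : fE v v = 0) (hno : NoExtra H v)
    {X : Set E} {φ : E → E} (hX1 : (1 : E) ∈ X) {a₀ : E} (ha₀ : a₀ ∈ X)
    (ha₀F : a₀ ∉ Set.range (algebraMap F E)) (hφ1 : φ 1 = 1) {h : GL (Fin n) F} (hh : h ∈ M)
    (hX : ∀ x ∈ X, (h : Mat) *ᵥ (x • v) = φ x • v) : ∃ σ : E ≃ₐ[F] E, ∀ x ∈ X, σ x = φ x := by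
  classical
  have h1 : (h : Mat) *ᵥ v = v := by simpa [hφ1] using hX 1 hX1
  have ha1 : φ a₀ ∉ Set.range (algebraMap F E) := by
    rintro ⟨f, hf⟩
    refine ha₀F ⟨f, smul_left_injective E hv (H98.gl_mulVec_injective h ?_)⟩
    show (h : Mat) *ᵥ (algebraMap F E f • v) = (h : Mat) *ᵥ (a₀ • v)
    rw [hX a₀ ha₀, ← hf, algebraMap_smul, Matrix.mulVec_smul, h1]
  obtain ⟨p, hp⟩ := CharP.exists F
  have : Fact p.Prime := ⟨CharP.char_is_prime F p⟩
  set G0 : Subgroup (GL (Fin n) F) := M ⊓ vecStab (Set.range fun a : E => a • v) with hG0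
  set N : Subgroup (GL (Fin n) F) := M ⊓ vecStab ((fun x => φ x • v) '' X) with hN
  have hG0N : G0 ≤ N := fun g hg => ⟨hg.1, by
    rintro x ⟨a, -, rfl⟩
    exact hg.2 _ ⟨φ a, rfl⟩⟩
  have hT0 : qGroup H v ≤ G0 := by
    intro g hg
    refine ⟨hg.1, ?_⟩
    rintro _ ⟨a, rfl⟩
    exact hg.2.1 a
  obtain ⟨P, hP⟩ := ((isPGroup_qGroup H (p := p) v).of_equiv
    (Subgroup.subgroupOfEquivOfLe hT0).symm).exists_le_sylow
  set U : Subgroup (GL (Fin n) F) := (P : Subgroup G0).map G0.subtype with hU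
  have hUG : U ≤ G0 := Subgroup.map_subtype_le _
  have hUp : IsPGroup p U := P.2.map _
  have hTU : qGroup H v ≤ U := fun g hg => ⟨⟨g, hT0 hg⟩, hP hg, rfl⟩
  have hUmax : ∀ T : Subgroup (GL (Fin n) F), IsPGroup p T → T ≤ G0 → U ≤ T → T = U := by
    intro T hTp hTG hUT
    have := P.3 (Q := T.subgroupOf G0) (hTp.of_equiv (Subgroup.subgroupOfEquivOfLe hTG).symm)
      (fun x hx => hUT ⟨x, hx, rfl⟩)
    rw [hU, ← this, Subgroup.map_subgroupOf_eq_of_le hTG]
  -- the fixed points of `U` form the line of `v`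
  have hfix : ∀ x, (∀ u ∈ U, (u : Mat) *ᵥ x = x) → x ∈ Submodule.span E {v} := by
    intro x hx
    by_contra hxv
    obtain ⟨ζ, hζ0, -, hζτ, hζE⟩ := H.exists_skew
    have h1 := hx _ (hTU (H.ts_mem_q hvv hζτ))
    rw [H.ts_mulVec hvv, add_eq_left] at h1
    have hxv0 : fE x v = 0 :=
      (mul_eq_zero.1 ((smul_eq_zero.1 h1).resolve_right hv)).resolve_left hζE
    obtain ⟨u, hxu, hvu⟩ := H.exists_dual hxv
    obtain ⟨γ, hγ⟩ := H.exists_trace (a := -fE u u) (by rw [map_neg, H.self_fixed])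
    have huv : fE u v = 0 := H.eq_zero_comm.1 hvu
    have h2 := hx _ (hTU (H.ei_mem_q hvv huv (γ := γ) (by linear_combination hγ)))
    rw [H.ei_mulVec hvv huv, hxu, one_smul, hxv0, zero_smul, add_zero, sub_eq_self] at h2
    exact hv h2
  have hstab : ∀ t : GL (Fin n) F, (∀ u ∈ U, t⁻¹ * u * t ∈ U) →
      ∀ a : E, (t : Mat) *ᵥ (a • v) ∈ Submodule.span E {v} := by
    intro t ht a
    refine hfix _ fun u hu => ?_
    have := (hUG (ht u hu)).2 (a • v) ⟨a, rfl⟩
    calc (u : Mat) *ᵥ ((t : Mat) *ᵥ (a • v))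
        = (t : Mat) *ᵥ (((t⁻¹ * u * t : GL (Fin n) F) : Mat) *ᵥ (a • v)) := by
          simp only [Units.val_mul, ← Matrix.mulVec_mulVec, H98.gl_mulVec_inv]
      _ = _ := by rw [this]
  -- `U` is a maximal `p`-subgroup of `N`
  have hmax : ∀ T : Subgroup (GL (Fin n) F), IsPGroup p T → T ≤ N → U ≤ T → T = U := by
    intro T hTp hTM hUT
    by_contra hne
    haveI := hTp.isNilpotent
    have hlt : U.subgroupOf T < ⊤ := lt_top_iff_ne_top.2 fun htop =>
      hne (le_antisymm (fun x hx => Subgroup.mem_subgroupOf.1 (htop ▸ Subgroup.mem_top (⟨x, hx⟩ : T))) hUT)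
    obtain ⟨t, ht, htU⟩ := SetLike.exists_of_lt (Group.normalizerCondition_of_isNilpotent _ hlt)
    have htn : ∀ u ∈ U, (t : GL (Fin n) F)⁻¹ * u * t ∈ U := fun u hu =>
      (Subgroup.mem_normalizer_iff''.1 ht ⟨u, hUT hu⟩).1 hu
    obtain ⟨A, hA⟩ := H.line_aut hv hvv hno (hTM t.2).1
      ((hTM t.2).2 v ⟨1, hX1, by simp [hφ1]⟩) (hstab _ htn)
    have hAa : A (φ a₀) = φ a₀ := smul_left_injective E hv (by
      show A (φ a₀) • v = φ a₀ • v
      rw [← hA]; exact (hTM t.2).2 _ ⟨a₀, ha₀, rfl⟩)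
    have hA1 : ∀ x : E, A x = x := by
      rcases (Subalgebra.isSimpleOrder_of_finrank_prime F E H.prime).eq_bot_or_eq_top
        (AlgHom.equalizer (A : E →ₐ[F] E) (AlgHom.id F E)) with h0 | h0
      · exact absurd (Algebra.mem_bot.1 (h0 ▸ (hAa : φ a₀ ∈ AlgHom.equalizer (A : E →ₐ[F] E) (AlgHom.id F E)) :
          φ a₀ ∈ (⊥ : Subalgebra F E))) ha1
      · exact fun x => (h0 ▸ Algebra.mem_top : x ∈ AlgHom.equalizer (A : E →ₐ[F] E) (AlgHom.id F E))
    have htG : (t : GL (Fin n) F) ∈ G0 := ⟨(hTM t.2).1, by rintro _ ⟨x, rfl⟩; rw [hA, hA1]⟩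
    have := hUmax (U ⊔ Subgroup.zpowers (t : GL (Fin n) F))
      (hTp.to_le (sup_le hUT ((Subgroup.zpowers_le).2 t.2)))
      (sup_le hUG ((Subgroup.zpowers_le).2 htG)) le_sup_left
    exact htU (Subgroup.mem_subgroupOf.2 (this ▸ Subgroup.mem_sup_right (Subgroup.mem_zpowers _)))
  have hUN : U ≤ N := hUG.trans hG0N
  let P1 : Sylow p N :=
    { toSubgroup := U.subgroupOf N
      isPGroup' := hUp.of_equiv (Subgroup.subgroupOfEquivOfLe hUN).symm
      is_maximal' := fun {Q} hQ hle => by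
        have := hmax (Q.map N.subtype) (hQ.map _) (Subgroup.map_subtype_le _)
          (fun x hx => ⟨⟨x, hUN hx⟩, hle hx, rfl⟩)
        rw [← this]
        exact (Subgroup.comap_map_eq_self_of_injective N.subtype_injective Q).symm }
  set U' := U.map (MulAut.conj h).toMonoidHom with hU'
  have hU'N : U' ≤ N := by
    rintro _ ⟨u, hu, rfl⟩
    refine ⟨M.mul_mem (M.mul_mem hh (hUG hu).1) (M.inv_mem hh), ?_⟩
    rintro _ ⟨a, ha, rfl⟩
    show _ *ᵥ (φ a • v) = φ a • v
    rw [MulEquiv.coe_toMonoidHom, MulAut.conj_apply, ← hX a ha]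
    simp only [Units.val_mul, ← Matrix.mulVec_mulVec, H98.gl_inv_mulVec, (hUG hu).2 _ ⟨a, rfl⟩]
  obtain ⟨P2, hP2⟩ := ((hUp.map (MulAut.conj h).toMonoidHom).of_equiv
    (Subgroup.subgroupOfEquivOfLe hU'N).symm).exists_le_sylow
  have hP2eq : U'.subgroupOf N = (P2 : Subgroup N) := by
    refine Subgroup.eq_of_le_of_card_ge hP2 (le_of_eq ?_)
    rw [P2.card_eq_multiplicity, ← P1.card_eq_multiplicity]
    show Nat.card (U.subgroupOf N) = _
    rw [Nat.card_congr (Subgroup.subgroupOfEquivOfLe hUN).toEquiv,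
      Nat.card_congr (Subgroup.subgroupOfEquivOfLe hU'N).toEquiv, hU',
      ← Nat.card_congr (U.equivMapOfInjective (MulAut.conj h).toMonoidHom (MulAut.conj h).injective).toEquiv]
  obtain ⟨g, hg⟩ := MulAction.exists_smul_eq N P2 P1
  set t : GL (Fin n) F := (g : GL (Fin n) F) * h with ht
  have htn : ∀ u ∈ U, t⁻¹ * u * t ∈ U := by
    intro u hu
    have hmem : (⟨u, hUN hu⟩ : N) ∈ ((g • P2 : Sylow p N) : Subgroup N) := by rw [hg]; exact hu
    rw [Sylow.coe_subgroup_smul] at hmem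
    have hmem2 : MulAut.conj g⁻¹ • (⟨u, hUN hu⟩ : N) ∈ (P2 : Subgroup N) := by
      have := Subgroup.mem_pointwise_smul_iff_inv_smul_mem.1 hmem
      rwa [← map_inv] at this
    rw [← hP2eq, Subgroup.mem_subgroupOf] at hmem2
    obtain ⟨w, hw, hwe⟩ := hmem2
    have hwe' : h * w * h⁻¹ = (g : GL (Fin n) F)⁻¹ * u * (g : GL (Fin n) F) := by simpa using hwe
    have : t⁻¹ * u * t = w := by
      rw [ht, mul_inv_rev]
      calc h⁻¹ * (g : GL (Fin n) F)⁻¹ * u * ((g : GL (Fin n) F) * h)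
          = h⁻¹ * ((g : GL (Fin n) F)⁻¹ * u * (g : GL (Fin n) F)) * h := by group
        _ = w := by rw [← hwe']; group
    rwa [this]
  have hgfix : ∀ x ∈ X, ((g : GL (Fin n) F) : Mat) *ᵥ (φ x • v) = φ x • v := fun x hx => g.2.2 _ ⟨x, hx, rfl⟩
  have htv : (t : Mat) *ᵥ v = v := by
    rw [ht, Units.val_mul, ← Matrix.mulVec_mulVec, h1]
    simpa [hφ1] using hgfix 1 hX1
  obtain ⟨A, hA⟩ := H.line_aut hv hvv hno (mul_mem g.2.1 hh) htv (hstab t htn)
  refine ⟨A, fun x hx => smul_left_injective E hv ?_⟩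
  show A x • v = φ x • v
  rw [← hA, Units.val_mul, ← Matrix.mulVec_mulVec, hX x hx]
  exact hgfix x hx

end Cfsg.Agent.H66.UField
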