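import Cfsg.Agent.H66.UField.Out

/-!
# Overgroups of unitary groups over an extension field contain the special unitary group
-/

set_option autoImplicit false
set_option linter.unusedSectionVars false
set_option linter.unusedVariables false

namespace Cfsg.Agent.H66.UField

open scoped Matrix
open Cfsg.Agent.H58.ExtField Cfsg.Agent.H98

variable {n q : ℕ} {F : Type*} [Field F] [Fintype F]
variable {E : Type*} [Field E] [Fintype E] [Algebra F E]
variable [Module E (Fin n → F)] [IsScalarTower F E (Fin n → F)]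

local notation "Mat" => Matrix (Fin n) (Fin n) F
local notation "V" => (Fin n → F)

variable {hF : Fintype.card F = q ^ 2} {τ : E ≃+* E} {fE : (Fin n → F) → (Fin n → F) → E}
  {M : Subgroup (GL (Fin n) F)}

variable (H : UCtx hF τ fE M)
include H

/-- Translations along the line of `v`. -/
theorem UCtx.exists_translate {v w : V} (hvv : fE v v = 0) (hw : w ∉ Submodule.span E {v}) {a : E}
    (ha : fE w v = 0 ∨ ∃ d, τ d = -d ∧ d * fE w v = a) :
    ∃ t ∈ M, (∀ c : E, (t : Mat) *ᵥ (c • v) = c • v) ∧ (t : Mat) *ᵥ w = w + a • v := by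
  rcases ha with h0 | ⟨d, hd, rfl⟩
  · obtain ⟨u₀, hwu, hvu⟩ := H.exists_dual hw
    have huv : fE ((-τ a) • u₀) v = 0 := by rw [H.smul_left, H.eq_zero_comm.1 hvu, mul_zero]
    obtain ⟨γ, hγ⟩ := H.exists_trace (a := -fE ((-τ a) • u₀) ((-τ a) • u₀)) (by rw [map_neg, H.self_fixed])
    refine ⟨_, H.ei_mem hvv huv (γ := γ) (by linear_combination hγ), fun c => ?_, ?_⟩
    · rw [H.ei_mulVec hvv huv, H.smul_left c, H.smul_left c, H.smul_right, hvu, hvv]
      simp
    · rw [H.ei_mulVec hvv huv, h0, zero_smul, add_zero, H.smul_right, hwu, mul_one, map_neg, H.inv.invol,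
        neg_smul, sub_neg_eq_add]
  · refine ⟨_, H.ts_mem hvv hd, fun c => ?_, H.ts_mulVec hvv d w⟩
    rw [H.ts_mulVec hvv, H.smul_left, hvv, mul_zero, mul_zero, zero_smul, add_zero]

/-- An element moving the line of `v` gives all transvections. -/
theorem UCtx.out_false {v : V} (hv : v ≠ 0) (hvv : fE v v = 0) (hno : NoExtra H v) {h : GL (Fin n) F}
    (hh : h ∈ M) (hhv : (h : Mat) *ᵥ v = v) {c₀ : E} (hc₀ : (h : Mat) *ᵥ (c₀ • v) ∉ Submodule.span E {v}) :
    False := by
  classical
  set T : E →ₗ[F] V := Matrix.mulVecLin (h : Mat) ∘ₗ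
    ((LinearMap.toSpanSingleton E V v).restrictScalars F) with hTdef
  have hT : ∀ c, T c = (h : Mat) *ᵥ (c • v) := fun c => rfl
  let K : Submodule F E := ((Submodule.span E {v}).restrictScalars F).comap T
  have hK : ∀ c, c ∈ K ↔ (h : Mat) *ᵥ (c • v) ∈ Submodule.span E {v} := fun c => Iff.rfl
  let δ : E →ₗ[F] E := (fl H v).restrictScalars F ∘ₗ T
  have hδ : ∀ c, δ c = fE ((h : Mat) *ᵥ (c • v)) v := fun c => rfl
  choose! α hα using fun k (hk : k ∈ K) => Submodule.mem_span_singleton.1 ((hK k).1 hk)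
  have hinj : Function.Injective fun c : E => c • v := smul_left_injective E hv
  have h1K : (1 : E) ∈ K := by
    rw [hK, one_smul, hhv]; exact Submodule.mem_span_singleton_self v
  have hα1 : α 1 = 1 := hinj (by
    show α 1 • v = (1 : E) • v
    rw [hα 1 h1K, one_smul, hhv])
  have key : ∀ c ∉ K, ∀ b ∈ K, b ≠ 0 → (δ c = 0 ∨ ∃ d, τ d = -d ∧ d * δ c = α b) →
      ∃ σ : E ≃ₐ[F] E, σ ≠ 1 ∧ (∀ k ∈ K, σ k = k) ∧ σ c = c + b := by
    intro c hc b hb hb0 hall
    obtain ⟨t, ht, htl, htw⟩ := H.exists_translate hvv (mt (hK c).2 hc) hall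
    set h' := h⁻¹ * (t * h)
    have hcF : c ∉ Set.range (algebraMap F E) := by
      rintro ⟨f, rfl⟩
      exact hc (by
        rw [Algebra.algebraMap_eq_smul_one]; exact K.smul_mem f h1K)
    obtain ⟨σ, hσ⟩ := H.conj_aut hv hvv hno (X := insert c (K : Set E))
      (φ := fun x => if x = c then c + b else x) (Or.inr h1K) (Set.mem_insert c _) hcF
      (by rw [if_neg (fun e => hc (by rw [← e]; exact h1K))]) (h := h')
      (mul_mem (inv_mem hh) (mul_mem ht hh)) (fun x hx => by
        simp only [h', Units.val_mul, ← Matrix.mulVec_mulVec]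
        by_cases hxc : x = c
        · subst hxc
          rw [if_pos rfl, htw, hα b hb, ← Matrix.mulVec_add, H98.gl_inv_mulVec, add_smul]
        · rw [if_neg hxc, ← hα x (hx.resolve_left hxc), htl, hα x (hx.resolve_left hxc), H98.gl_inv_mulVec])
    have hσc : σ c = c + b := by rw [hσ c (Set.mem_insert c _), if_pos rfl]
    exact ⟨σ, fun e => hb0 (by rw [e, AlgEquiv.one_apply] at hσc; linear_combination -hσc),
      fun k hk => by rw [hσ k (Or.inr hk), if_neg (fun e => hc (by rw [← e]; exact hk))], hσc⟩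
  have hδK : ∀ k ∈ K, δ k = 0 := fun k hk => by
    rw [hδ, ← hα k hk, H.smul_left, hvv, mul_zero]
  have hδtr : ∀ c, Algebra.trace F E (δ c) = 0 := fun c => by
    rw [hδ, ← H.beta_eq]
    conv_lhs => arg 5; rw [← hhv]
    rw [H.iso hh, H.beta_eq, H.smul_left, hvv, mul_zero, map_zero]
  obtain ⟨ζ, hζ0, hζs, hζτ, hζE⟩ := H.exists_skew
  have hsk : ∀ a, τ a = a → τ (algebraMap F E ζ * a) = -(algebraMap F E ζ * a) := fun a ha => by
    rw [map_mul, hζτ, ha, neg_mul]
  have hinv : ∀ s, τ s = -s → τ s⁻¹ = -s⁻¹ := fun s hs => by rw [map_inv₀, hs, inv_neg]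
  by_cases hbig : ∀ k ∈ K, k ∈ Set.range (algebraMap F E)
  · -- the line meets its image in the `F`-line of `v` only
    have hαF : ∀ f : F, α (algebraMap F E f) = algebraMap F E f := fun f => hinj (by
      have hf : algebraMap F E f ∈ K := by
        rw [Algebra.algebraMap_eq_smul_one]; exact K.smul_mem f h1K
      show α _ • v = algebraMap F E f • v
      rw [hα _ hf, algebraMap_smul, Matrix.mulVec_smul, hhv])
    have hFK : ∀ f : F, algebraMap F E f ∈ K := fun f => by
      rw [Algebra.algebraMap_eq_smul_one]; exact K.smul_mem f h1K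
    have hker : ∀ c, δ c = 0 → c ∈ K := fun c hc => by
      by_contra hcK
      refine not_all_shifts H (c := c) fun f hf => ?_
      obtain ⟨σ, -, -, hσ⟩ := key c hcK _ (hFK f) (by simpa using hf) (Or.inl hc)
      exact ⟨σ, hσ⟩
    have hJ : ∀ c, τ (δ c) = -δ c → c ∈ jSpace F E := by
      intro c hc
      by_cases hcK : c ∈ K
      · obtain ⟨f, rfl⟩ := hbig c hcK
        exact fun g => ⟨0, by simp⟩
      have h0 : δ c ≠ 0 := fun e => hcK (hker c e)
      obtain ⟨σ, hσ1, -, hσ⟩ := key c hcK 1 h1K one_ne_zero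
        (Or.inr ⟨(δ c)⁻¹, hinv _ hc, by rw [inv_mul_cancel₀ h0, hα1]⟩)
      intro g
      obtain ⟨i, hi⟩ := mem_jSpace H.prime hσ1 (β := 1) (hσ.trans (by rw [map_one])) g
      exact ⟨i • (1 : F), eq_sub_of_add_eq' hi.symm⟩
    have hrange : LinearMap.range δ = LinearMap.ker (Algebra.trace F E) := by
      refine Submodule.eq_of_le_of_finrank_le (by rintro _ ⟨c, rfl⟩; exact hδtr c) ?_
      have h1 := LinearMap.finrank_range_add_finrank_ker δ
      have h2 := LinearMap.finrank_range_add_finrank_ker (Algebra.trace F E)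
      have h3 : Module.finrank F (LinearMap.ker δ) ≤ 1 := by
        refine le_trans (Submodule.finrank_mono (t := Submodule.span F {(1 : E)}) fun x hx => ?_)
          (le_of_eq (finrank_span_singleton one_ne_zero))
        obtain ⟨f, rfl⟩ := hbig x (hker x hx)
        exact Submodule.mem_span_singleton.2 ⟨f, (Algebra.algebraMap_eq_smul_one f).symm⟩
      have h4 : 1 ≤ Module.finrank F (LinearMap.range (Algebra.trace F E)) :=
        Submodule.one_le_finrank_iff.2 fun e => by
          obtain ⟨s, -, hs⟩ := H.exists_skew_trace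
          exact hs ((Submodule.mem_bot F).1 (e ▸ LinearMap.mem_range_self _ s))
      omega
    refine jSpace_ne_top H.prime H.three (eq_top_iff.2 fun c _ => ?_)
    obtain ⟨ξ, hξ, hdec⟩ := H.inv.decomp
    obtain ⟨a, b, ha, hb, hab⟩ := hdec (δ c / algebraMap F E ζ)
    have hδc : δ c = algebraMap F E ζ * a + ξ • (algebraMap F E ζ * b) := by
      rw [← mul_smul_comm, ← mul_add, ← hab, mul_div_cancel₀ _ hζE]
    have htr := hδtr c
    have hfix : ∀ x, τ x = x → Herm.frobQ hF (Algebra.trace F E x) = Algebra.trace F E x := fun x hx => by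
      rw [← H.inv.tau_trace, hx]
    rw [hδc, map_add, ← Algebra.smul_def, ← Algebra.smul_def, map_smul, map_smul, map_smul, smul_eq_mul,
      smul_eq_mul, smul_eq_mul] at htr
    have htr' : Algebra.trace F E a + ξ * Algebra.trace F E b = 0 :=
      mul_left_cancel₀ hζ0 (by rw [mul_zero]; linear_combination htr)
    have htr'' := congrArg (Herm.frobQ hF) htr'
    rw [map_add, map_mul, hfix a ha, hfix b hb, map_zero] at htr''
    have hb0 : Algebra.trace F E b = 0 :=
      (mul_eq_zero.1 (show (ξ - Herm.frobQ hF ξ) * Algebra.trace F E b = 0 by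
        linear_combination htr' - htr'')).resolve_left (sub_ne_zero.2 (Ne.symm hξ))
    rw [hb0, mul_zero, add_zero] at htr'
    have hlift : ∀ x, τ x = x → Algebra.trace F E x = 0 → ∃ e, e ∈ jSpace F E ∧ δ e = algebraMap F E ζ * x := by
      intro x hx hxt
      obtain ⟨e, he⟩ := (hrange.ge (show algebraMap F E ζ * x ∈ LinearMap.ker (Algebra.trace F E) by
        rw [LinearMap.mem_ker, ← Algebra.smul_def, map_smul, hxt, smul_zero]))
      exact ⟨e, hJ e (by rw [he]; exact hsk x hx), he⟩
    obtain ⟨e₁, he₁, hd₁⟩ := hlift a ha htr'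
    obtain ⟨e₂, he₂, hd₂⟩ := hlift b hb hb0
    have h5 : δ (c - (e₁ + ξ • e₂)) = 0 := by rw [map_sub, map_add, map_smul, hd₁, hd₂, hδc, sub_self]
    obtain ⟨f, hf⟩ := hbig _ (hker _ h5)
    have : c = algebraMap F E f + (e₁ + ξ • e₂) := by rw [hf, sub_add_cancel]
    rw [this]
    exact Submodule.add_mem _ (fun g => ⟨0, by simp⟩)
      (Submodule.add_mem _ he₁ (Submodule.smul_mem _ ξ he₂))
  · -- automorphisms fixing the intersection are trivial
    push Not at hbig
    obtain ⟨k₀, hk₀, hk₀F⟩ := hbig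
    suffices hex : ∃ c ∉ K, ∃ b ∈ K, b ≠ 0 ∧ (δ c = 0 ∨ ∃ d, τ d = -d ∧ d * δ c = α b) by
      obtain ⟨c, hc, b, hb, hb0, hall⟩ := hex
      obtain ⟨σ, hσ1, hσK, -⟩ := key c hc b hb hb0 hall
      exact hk₀F (mem_range_of_fixed H.prime hσ1 (hσK k₀ hk₀))
    by_cases hker : ∃ c ∉ K, δ c = 0
    · obtain ⟨c, hc, hc0⟩ := hker
      exact ⟨c, hc, 1, h1K, one_ne_zero, Or.inl hc0⟩
    push Not at hker
    have hKker : K = LinearMap.ker δ := le_antisymm (fun k hk => hδK k hk) fun c hc => by
      by_contra hcK; exact hker c hcK hc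
    set r := Module.finrank F E with hr
    set k := Module.finrank F K with hk
    have hq := H.two_le
    have hcardK : Nat.card K = (q ^ 2) ^ k := by
      rw [Module.natCard_eq_pow_finrank (K := F), Nat.card_eq_fintype_card, hF]
    have hcardE : Nat.card E = (q ^ 2) ^ r := by rw [card_E F E, hF]
    by_cases hk2 : r < 2 * k
    · have hcK : c₀ ∉ K := mt (hK c₀).1 hc₀
      obtain ⟨p, p', hne, heq⟩ : ∃ p p' : K × Fx τ, p ≠ p' ∧
          α p.1 + δ c₀ * (algebraMap F E ζ * p.2) = α p'.1 + δ c₀ * (algebraMap F E ζ * p'.2) := by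
        by_contra hcon
        push Not at hcon
        have h1 := Nat.card_le_card_of_injective
          (fun p : K × Fx τ => α p.1 + δ c₀ * (algebraMap F E ζ * p.2))
          (fun p p' e => Classical.byContradiction fun hne => hcon p p' hne e)
        rw [Nat.card_prod, hcardK, H.card_Fx, hcardE, ← pow_mul, ← pow_mul, ← pow_add,
          Nat.pow_le_pow_iff_right (show 1 < q by omega)] at h1
        omega
      have hα' : ∀ x : K, α x • v = (h : Mat) *ᵥ ((x : E) • v) := fun x => hα x x.2
      have hsub : α ((p.1 - p'.1 : K) : E) = α p.1 - α p'.1 := hinj (by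
        show α _ • v = (α p.1 - α p'.1) • v
        rw [sub_smul, hα', hα', hα', ← Matrix.mulVec_sub, ← sub_smul, AddSubgroupClass.coe_sub])
      have hne1 : p.1 ≠ p'.1 := fun e => hne (by
        refine Prod.ext e (Subtype.ext ?_)
        rw [e, add_right_inj] at heq
        exact mul_left_cancel₀ hζE (mul_left_cancel₀ (hker c₀ hcK) heq))
      refine ⟨c₀, hcK, _, (p.1 - p'.1 : K).2, fun e => hne1 (sub_eq_zero.1 (Subtype.ext e)), Or.inr
        ⟨algebraMap F E ζ * ((p'.2 : E) - p.2), hsk _ (by rw [map_sub, mem_Fx.1 p.2.2, mem_Fx.1 p'.2.2]), ?_⟩⟩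
      rw [hsub]
      linear_combination -heq
    · let S0 : AddSubgroup E := Fx τ ⊓ (Algebra.trace F E).toAddMonoidHom.ker
      have hS0 : q ^ r ≤ Nat.card S0 * q := by
        let θ : Fx τ →+ F := (Algebra.trace F E).toAddMonoidHom.comp (Fx τ).subtype
        have h1 := AddSubgroup.card_mul_index θ.ker
        rw [AddSubgroup.index_ker, H.card_Fx] at h1
        have h2 : Nat.card θ.range ≤ q := by
          refine le_trans ?_ (le_of_eq (Cfsg.Agent.H3.card_fixed hF))
          refine Nat.card_le_card_of_injective (fun x => ⟨x.1, ?_⟩) fun x y e => Subtype.ext (congrArg (fun z : {x : F // x ^ q = x} => z.1) e)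
          obtain ⟨_, a, rfl⟩ := x
          show Herm.frobQ hF (Algebra.trace F E (a : E)) = Algebra.trace F E (a : E)
          rw [← H.inv.tau_trace, mem_Fx.1 a.2]
        have h3 : Nat.card θ.ker ≤ Nat.card S0 :=
          Nat.card_le_card_of_injective (fun x => ⟨x.1.1, x.1.2, x.2⟩) fun x y e =>
            Subtype.ext (Subtype.ext (congrArg (fun z : S0 => (z : E)) e))
        rw [← h1]
        exact Nat.mul_le_mul h3 h2
      have hcardD : Nat.card (LinearMap.range δ) = (q ^ 2) ^ (r - k) := by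
        have h1 := LinearMap.finrank_range_add_finrank_ker δ
        rw [← hKker, ← hk, ← hr] at h1
        rw [Module.natCard_eq_pow_finrank (K := F), Nat.card_eq_fintype_card, hF,
          show Module.finrank F (LinearMap.range δ) = r - k by omega]
      have hcardT : Nat.card (LinearMap.ker (Algebra.trace F E)) ≤ (q ^ 2) ^ (r - 1) := by
        have h2 := LinearMap.finrank_range_add_finrank_ker (Algebra.trace F E)
        have h4 : 1 ≤ Module.finrank F (LinearMap.range (Algebra.trace F E)) :=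
          Submodule.one_le_finrank_iff.2 fun e => by
            obtain ⟨s, -, hs⟩ := H.exists_skew_trace
            exact hs ((Submodule.mem_bot F).1 (e ▸ LinearMap.mem_range_self _ s))
        rw [Module.natCard_eq_pow_finrank (K := F), Nat.card_eq_fintype_card, hF]
        exact Nat.pow_le_pow_right (pow_pos (by omega) 2) (by omega)
      obtain ⟨p, p', hne, heq⟩ : ∃ p p' : LinearMap.range δ × S0, p ≠ p' ∧
          (p.1 : E) + algebraMap F E ζ * p.2 = p'.1 + algebraMap F E ζ * p'.2 := by
        by_contra hcon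
        push Not at hcon
        have h1 := Nat.card_le_card_of_injective
          (fun p : LinearMap.range δ × S0 => (⟨(p.1 : E) + algebraMap F E ζ * p.2, by
            obtain ⟨c, hc⟩ := p.1.2
            rw [LinearMap.mem_ker, map_add, ← hc, hδtr, ← Algebra.smul_def, map_smul,
              show Algebra.trace F E (p.2 : E) = 0 from p.2.2.2, smul_zero, add_zero]⟩ :
              LinearMap.ker (Algebra.trace F E)))
          (fun p p' e => Classical.byContradiction fun hne => hcon p p' hne
            (congrArg (fun z : LinearMap.ker (Algebra.trace F E) => (z : E)) e))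
        rw [Nat.card_prod, hcardD] at h1
        have h2 := Nat.mul_le_mul_left ((q ^ 2) ^ (r - k)) hS0
        rw [← mul_assoc] at h2
        have h3 := le_trans h2 (Nat.mul_le_mul_right q (h1.trans hcardT))
        rw [← pow_mul, ← pow_mul, ← pow_add, ← pow_succ, Nat.pow_le_pow_iff_right (show 1 < q by omega)] at h3
        have hk1 : k ≤ r := Submodule.finrank_le K
        have hr3 : 3 ≤ r := H.three
        omega
      obtain ⟨c, hc⟩ := (p.1 - p'.1).2
      have hval : δ c = algebraMap F E ζ * ((p'.2 : E) - p.2) := by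
        rw [hc, AddSubgroupClass.coe_sub]; linear_combination heq
      have h0 : δ c ≠ 0 := fun e => by
        rw [e] at hval
        have h2 : p'.2 = p.2 := Subtype.ext (sub_eq_zero.1 ((mul_eq_zero.1 hval.symm).resolve_left hζE))
        refine hne (Prod.ext (Subtype.ext ?_) h2.symm)
        rw [h2, add_left_inj] at heq
        exact heq
      refine ⟨c, fun hcK => h0 (hδK c hcK), 1, h1K, one_ne_zero, Or.inr ⟨(δ c)⁻¹, hinv _ ?_, ?_⟩⟩
      · rw [hval]
        exact hsk _ (by rw [map_sub, mem_Fx.1 p.2.2.1, mem_Fx.1 p'.2.2.1])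
      · rw [inv_mul_cancel₀ h0, hα1]

/-- Every isotropic vector of the extended form is the image of a multiple of `v`. -/
theorem UCtx.exists_image {v : V} (hv : v ≠ 0) (hvv : fE v v = 0) {x : V} (hx : x ≠ 0) (hxx : fE x x = 0) :
    ∃ g ∈ M, ∃ c : E, (g : Mat) *ᵥ (c • v) = x := by
  obtain ⟨ζ, hζ0, -, hζτ, hζE⟩ := H.exists_skew
  have step : ∀ {a b : V}, fE a a = 0 → fE b b = 0 → fE a b ≠ 0 →
      ∃ g ∈ M, ELin E g ∧ ∃ l : E, l ≠ 0 ∧ (g : Mat) *ᵥ a = l • b := by
    intro a b haa hbb hab
    set l := τ (algebraMap F E ζ / fE a b) with hl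
    have hab' : fE a (l • b) = algebraMap F E ζ := by
      rw [H.smul_right, hl, H.inv.invol, div_mul_cancel₀ _ hab]
    have hba' : fE (l • b) a = -algebraMap F E ζ := by rw [H.herm, hab', hζτ]
    have hll : fE (l • b) (l • b) = 0 := by rw [H.smul_left, H.smul_right, hbb, mul_zero, mul_zero]
    have hu : fE (l • b - a) (l • b - a) = 0 := by
      rw [H.sub_left, H.sub_right, H.sub_right, hll, haa, hab', hba']; ring
    refine ⟨ts H (l • b - a) (algebraMap F E ζ)⁻¹, H.ts_mem hu (by rw [map_inv₀, hζτ, inv_neg]),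
      el_elin (H.ts_kill hu _), l, (map_ne_zero_iff τ τ.injective).2 (div_ne_zero hζE hab), ?_⟩
    rw [H.ts_mulVec hu, H.sub_right, hab', haa, sub_zero, inv_mul_cancel₀ hζE, one_smul, add_sub_cancel]
  obtain ⟨e, hee, hve, -⟩ := H.exists_partner hv hvv
  obtain ⟨z, hzz, hxz, -⟩ := H.exists_partner hx hxx
  obtain ⟨u, huu, hvu, hxu⟩ : ∃ u, fE u u = 0 ∧ fE v u ≠ 0 ∧ fE x u ≠ 0 := by
    by_cases h1 : fE x e = 0
    swap
    · exact ⟨e, hee, by rw [hve]; exact one_ne_zero, h1⟩
    by_cases h2 : fE v z = 0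
    swap
    · exact ⟨z, hzz, h2, by rw [hxz]; exact one_ne_zero⟩
    obtain ⟨l, hl0, hl⟩ : ∃ l : E, l ≠ 0 ∧ τ l * fE e z + l * fE z e = 0 := by
      by_cases hez : fE e z = 0
      · exact ⟨1, one_ne_zero, by rw [hez, H.eq_zero_comm.1 hez, mul_zero, mul_zero, add_zero]⟩
      · refine ⟨τ (algebraMap F E ζ / fE e z), (map_ne_zero_iff τ τ.injective).2 (div_ne_zero hζE hez), ?_⟩
        rw [H.inv.invol, div_mul_cancel₀ _ hez, H.herm e z, map_div₀, hζτ,
          div_mul_cancel₀ _ ((map_ne_zero_iff τ τ.injective).2 hez), add_neg_cancel]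
    refine ⟨e + l • z, ?_, ?_, ?_⟩
    · simp only [H.add_left, H.add_right, H.smul_left, H.smul_right, hee, hzz]
      linear_combination hl
    · rw [H.add_right, H.smul_right, hve, h2, mul_zero, add_zero]; exact one_ne_zero
    · rw [H.add_right, H.smul_right, h1, hxz, zero_add, mul_one]; exact (map_ne_zero_iff τ τ.injective).2 hl0
  obtain ⟨g, hg, hgl, l, hl0, hgv⟩ := step hvv huu hvu
  obtain ⟨g', hg', hgl', l', hl0', hgu⟩ := step huu hxx (fun e => hxu (H.eq_zero_comm.1 e))
  refine ⟨g' * g, mul_mem hg' hg, (l * l')⁻¹, ?_⟩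
  rw [Units.val_mul, ← Matrix.mulVec_mulVec, hgl, hgv, hgl', hgl', hgu, smul_smul, smul_smul, mul_assoc,
    inv_mul_cancel₀ (mul_ne_zero hl0 hl0'), one_smul]

/-- The overgroup is the special unitary group. -/
theorem UCtx.su_le : Cfsg.GU n F q ⊓ Cfsg.Geo.specialLinear (Fin n) F ≤ M := by
  by_contra hnot
  have hno : ∀ v : V, v ≠ 0 → fE v v = 0 → NoExtra H v := by
    intro v hv hvv
    by_contra hno
    refine hnot (Herm.su_le_of_uT hF H.four fun x hxx d hd => ?_)
    have hiso : ∀ y, fE y y = 0 → y ∈ Herm.centres (Herm.isUnitary_std (n := n) hF) M := by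
      intro y hyy
      rcases eq_or_ne y 0 with rfl | hy
      · have := H.centre_of_extra hvv hno 0
        rwa [zero_smul] at this
      obtain ⟨g, hg, c, hc⟩ := H.exists_image hv hvv hy hyy
      rw [← hc]
      exact Herm.centres_conj _ (fun k hk => H.iso hk) hg (H.centre_of_extra hvv hno c)
    have hx : x ∈ Herm.centres (Herm.isUnitary_std (n := n) hF) M := by
      by_cases hEE : fE x x = 0
      · exact hiso x hEE
      obtain ⟨a, b, haa, hbb, hab, hne⟩ := H.exists_split hEE
      have := Herm.centres_pair _ (fun k hk => H.iso hk) (hiso a haa) (hiso b hbb) hne (k := 1) (l := 1)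
        (by rw [one_smul, one_smul, ← hab]; exact hxx)
      rwa [one_smul, one_smul, ← hab] at this
    exact hx.2 d hd
  have hns := H.not_stable hno
  simp only [Stable, not_forall] at hns
  obtain ⟨v, hv, hvv, h, hh, hhv, c, hc⟩ := hns
  exact H.out_false hv hvv (hno v hv hvv) hh hhv hc

end Cfsg.Agent.H66.UField
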