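import Cfsg.Agent.H66.UField.Count

/-!
# Overgroups of unitary groups over an extension field: the stabiliser of a vector moves its line

If every stabiliser of an isotropic vector preserved its line, every element would permute the isotropic lines
and so be semilinear.
-/

set_option autoImplicit false
set_option linter.unusedSectionVars false
set_option linter.unusedVariables false

namespace Cfsg.Agent.H66.UField

open scoped Matrix
open Cfsg.Agent.H58.ExtField Cfsg.Agent.H98

variable {n q : ℕ} {F : Type*} [Field F] [Fintype F]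
variable {E : Type*} [Field E] [Fintype E] [Algebra F E]
variable [Module E (Fin n → F)] [IsScalarTower F E (Fin n → F)]

local notation "Mat" => Matrix (Fin n) (Fin n) F
local notation "V" => (Fin n → F)

variable {hF : Fintype.card F = q ^ 2} {τ : E ≃+* E} {fE : (Fin n → F) → (Fin n → F) → E}
  {M : Subgroup (GL (Fin n) F)}

/-- The stabilisers of isotropic vectors preserve their lines. -/
def Stable (H : UCtx hF τ fE M) : Prop :=
  ∀ v : Fin n → F, v ≠ 0 → fE v v = 0 → ∀ h ∈ M, (h : Matrix (Fin n) (Fin n) F) *ᵥ v = v →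
    ∀ c : E, (h : Matrix (Fin n) (Fin n) F) *ᵥ (c • v) ∈ Submodule.span E {v}

variable (H : UCtx hF τ fE M)
include H

theorem UCtx.act (hno : ∀ v : V, v ≠ 0 → fE v v = 0 → NoExtra H v) (hst : Stable H) {v : V} (hv : v ≠ 0)
    (hvv : fE v v = 0) {g s : GL (Fin n) F} (hg : g ∈ M) (hs : s ∈ M)
    (hsy : (s : Mat) *ᵥ ((g : Mat) *ᵥ v) = (g : Mat) *ᵥ v) :
    ∃ σ : E ≃ₐ[F] E, ∀ c : E, (s : Mat) *ᵥ ((g : Mat) *ᵥ (c • v)) = (g : Mat) *ᵥ (σ c • v) := by
  have hk : g⁻¹ * s * g ∈ M := mul_mem (mul_mem (inv_mem hg) hs) hg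
  have hkv : ((g⁻¹ * s * g : GL (Fin n) F) : Mat) *ᵥ v = v := by
    simp only [Units.val_mul, ← Matrix.mulVec_mulVec, hsy, H98.gl_inv_mulVec]
  obtain ⟨σ, hσ⟩ := H.line_aut hv hvv (hno v hv hvv) hk hkv (hst v hv hvv _ hk hkv)
  refine ⟨σ, fun c => ?_⟩
  rw [← hσ]
  simp only [Units.val_mul, ← Matrix.mulVec_mulVec, H98.gl_mulVec_inv]

theorem UCtx.image_iso (hno : ∀ v : V, v ≠ 0 → fE v v = 0 → NoExtra H v) (hst : Stable H) {v : V}
    (hv : v ≠ 0) (hvv : fE v v = 0) {g : GL (Fin n) F} (hg : g ∈ M) :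
    fE ((g : Mat) *ᵥ v) ((g : Mat) *ᵥ v) = 0 := by
  classical
  set y := (g : Mat) *ᵥ v with hy
  by_contra hyy
  have hy0 : y ≠ 0 := fun e => hyy (by rw [e, H.zero_left])
  by_cases hall : ∀ c : E, (g : Mat) *ᵥ (c • v) ∈ Submodule.span E {y}
  · choose a ha using fun c => Submodule.mem_span_singleton.1 (hall c)
    have hinj : Function.Injective a := fun c c' e => smul_left_injective E hv
      (H98.gl_mulVec_injective g (by show _ *ᵥ (c • v) = _ *ᵥ (c' • v); rw [← ha c, ← ha c', e]))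
    have hsur := Finite.surjective_of_injective hinj
    refine hyy (eq_zero_of_trace (F := F) fun e => ?_)
    obtain ⟨c, rfl⟩ := hsur e
    rw [H.htr, ha, hy, H.iso hg, H.beta_eq, H.smul_left, hvv, mul_zero, map_zero]
  push Not at hall
  obtain ⟨c₀, hc₀⟩ := hall
  set w := (g : Mat) *ᵥ (c₀ • v)
  obtain ⟨u, hyu, huu, hwu⟩ : ∃ u, fE y u = 0 ∧ fE u u ≠ 0 ∧ fE w u ≠ 0 := by
    set z := w - (fE w y / fE y y) • y with hz
    have hzy : fE z y = 0 := by rw [hz, H.sub_left, H.smul_left, div_mul_cancel₀ _ hyy, sub_self]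
    have hyz := H.eq_zero_comm.1 hzy
    have hwz : ∀ u, fE y u = 0 → fE z u = fE w u := fun u hu => by
      rw [hz, H.sub_left, H.smul_left, hu, mul_zero, sub_zero]
    by_cases hzz : fE z z = 0
    swap
    · exact ⟨z, hyz, hzz, by rw [← hwz z hyz]; exact hzz⟩
    have hzs : z ∉ Submodule.span E {y} := fun hmem => by
      obtain ⟨a, ha⟩ := Submodule.mem_span_singleton.1 hmem
      rw [← ha, H.smul_left] at hzy
      refine hc₀ (Submodule.mem_span_singleton.2 ⟨fE w y / fE y y, (sub_eq_zero.1 (hz.symm.trans ?_)).symm⟩)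
      rw [← ha, (mul_eq_zero.1 hzy).resolve_right hyy, zero_smul]
    obtain ⟨u₀, hzu, hyu₀⟩ := H.exists_dual hzs
    have huz : fE u₀ z = 1 := by rw [H.herm, hzu, map_one]
    obtain ⟨t, ht⟩ := H.exists_trace (a := 1 - fE u₀ u₀) (by rw [map_sub, map_one, H.self_fixed])
    refine ⟨u₀ + t • z, ?_, ?_, ?_⟩
    · rw [H.add_right, H.smul_right, hyu₀, hyz, mul_zero, add_zero]
    · have : fE (u₀ + t • z) (u₀ + t • z) = 1 := by
        simp only [H.add_left, H.add_right, H.smul_left, H.smul_right, hzu, huz, hzz]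
        linear_combination ht
      rw [this]; exact one_ne_zero
    · rw [← hwz _ (by rw [H.add_right, H.smul_right, hyu₀, hyz, mul_zero, add_zero]), H.add_right,
        H.smul_right, hzu, hzz, mul_zero, add_zero]
      exact one_ne_zero
  obtain ⟨ε, hε, hεF, hεN⟩ := H.exEps
  obtain ⟨R, hR, hRy, hRx⟩ := H.exists_rot hε hεN hyy huu hyu
  obtain ⟨σ, hσ⟩ := H.act hno hst hv hvv hg hR hRy
  have hz : ∀ c, fE ((g : Mat) *ᵥ (σ c • v)) u = ε * fE ((g : Mat) *ᵥ (c • v)) u := fun c => by
    rw [← hσ, hRx]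
  have hpow : ∀ (i : ℕ) c, fE ((g : Mat) *ᵥ ((σ ^ i) c • v)) u = ε ^ i * fE ((g : Mat) *ᵥ (c • v)) u := by
    intro i
    induction i with
    | zero => intro c; simp
    | succ i ih => intro c; rw [pow_succ', AlgEquiv.mul_apply, hz, ih, pow_succ', mul_assoc]
  have h1 := hpow (Module.finrank F E) c₀
  rw [pow_finrank, AlgEquiv.one_apply] at h1
  exact hεF (mem_range_of_pow H.prime (mul_right_cancel₀ hwu ((one_mul _).trans h1)).symm)

theorem UCtx.image_line (hno : ∀ v : V, v ≠ 0 → fE v v = 0 → NoExtra H v) (hst : Stable H) {v : V}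
    (hv : v ≠ 0) (hvv : fE v v = 0) {g : GL (Fin n) F} (hg : g ∈ M) (c : E) :
    (g : Mat) *ᵥ (c • v) ∈ Submodule.span E {(g : Mat) *ᵥ v} := by
  classical
  set y := (g : Mat) *ᵥ v with hy
  have hyy : fE y y = 0 := H.image_iso hno hst hv hvv hg
  by_contra hw
  set w := (g : Mat) *ᵥ (c • v)
  have hy0 : y ≠ 0 := fun e => hv (H98.gl_mulVec_injective g (e.trans (Matrix.mulVec_zero _).symm))
  by_cases hδ : fE w y = 0
  · obtain ⟨u, hwu, hyu⟩ := H.exists_dual hw
    choose γ hγ using fun ρ : E => H.exists_trace (a := -fE (ρ • u) (ρ • u)) (by rw [map_neg, H.self_fixed])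
    have huy : ∀ ρ : E, fE (ρ • u) y = 0 := fun ρ => by rw [H.smul_left, H.eq_zero_comm.1 hyu, mul_zero]
    choose σ hσ using fun ρ : E => H.act hno hst hv hvv hg (H.ei_mem hyy (huy ρ) (γ := γ ρ)
      (by linear_combination hγ ρ)) (by rw [← hy, H.ei_mulVec hyy (huy ρ), H.smul_right, hyu, hyy]; simp)
    obtain ⟨a, b, ha, hb, hne, hab⟩ := H.exists_two σ
    have e := (hσ a c).trans ((congrArg (fun s : E ≃ₐ[F] E => (g : Mat) *ᵥ (s c • v)) hab).trans (hσ b c).symm)
    rw [H.ei_mulVec hyy (huy a), H.ei_mulVec hyy (huy b)] at e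
    rw [show fE ((g : Mat) *ᵥ (c • v)) y = 0 from hδ] at e
    simp only [zero_smul, add_zero, H.smul_right, ha, hb, sub_right_inj] at e
    refine hne ?_
    have := smul_left_injective E hy0 e
    rwa [show fE ((g : Mat) *ᵥ (c • v)) u = 1 from hwu, mul_one, mul_one] at this
  · obtain ⟨ζ, hζ0, -, hζτ, hζE⟩ := H.exists_skew
    have hsk : ∀ a, τ a = a → τ (algebraMap F E ζ * a) = -(algebraMap F E ζ * a) := fun a ha => by
      rw [map_mul, hζτ, ha, neg_mul]
    have hex : ∀ a : E, ∃ σ : E ≃ₐ[F] E, τ a = a →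
        (ts H y (algebraMap F E ζ * a) : Mat) *ᵥ w = (g : Mat) *ᵥ (σ c • v) := fun a => by
      by_cases ha : τ a = a
      · obtain ⟨σ, hσ⟩ := H.act hno hst hv hvv hg (H.ts_mem hyy (hsk a ha))
          (by rw [← hy, H.ts_mulVec hyy, hyy, mul_zero, zero_smul, add_zero])
        exact ⟨σ, fun _ => hσ c⟩
      · exact ⟨1, fun h => absurd h ha⟩
    choose σ hσ using hex
    obtain ⟨a, b, ha, hb, hne, hab⟩ := H.exists_two σ
    have e := (hσ a ha).trans ((congrArg (fun s : E ≃ₐ[F] E => (g : Mat) *ᵥ (s c • v)) hab).trans (hσ b hb).symm)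
    rw [H.ts_mulVec hyy, H.ts_mulVec hyy, add_right_inj] at e
    exact hne (mul_left_cancel₀ hζE (mul_right_cancel₀ hδ (smul_left_injective E hy0 e)))

/-- Some stabiliser of an isotropic vector moves its line. -/
theorem UCtx.not_stable (hno : ∀ v : V, v ≠ 0 → fE v v = 0 → NoExtra H v) : ¬ Stable H := by
  classical
  intro hst
  obtain ⟨h, hh, hns⟩ := H.notSemi
  obtain ⟨c, hc⟩ : ∃ c : E, c ∉ Set.range (algebraMap F E) := by
    obtain ⟨ε, -, hε, -⟩ := H.exEps
    exact ⟨ε, hε⟩
  refine hns (semi_of_one H.prime h hc ?_)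
  let T : V →ₗ[F] V := Matrix.mulVecLin (h : Mat) ∘ₗ
    (DistribSMul.toLinearMap F V c) ∘ₗ Matrix.mulVecLin ((h⁻¹ : GL (Fin n) F) : Mat)
  have hT : ∀ y, T y = (h : Mat) *ᵥ (c • (((h⁻¹ : GL (Fin n) F) : Mat) *ᵥ y)) := fun y => rfl
  have hline : ∀ y, y ≠ 0 → fE y y = 0 → T y ∈ Submodule.span E {y} := by
    intro y hy hyy
    have hx : ((h⁻¹ : GL (Fin n) F) : Mat) *ᵥ y ≠ 0 := fun e => hy (by
      rw [← H98.gl_mulVec_inv h y, e, Matrix.mulVec_zero])
    have := H.image_line hno hst hx (H.image_iso hno hst hy hyy (inv_mem hh)) hh c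
    rwa [H98.gl_mulVec_inv] at this
  choose! d hd using fun y hy hyy => Submodule.mem_span_singleton.1 (hline y hy hyy)
  obtain ⟨ζ, hζ0, -, hζτ, hζE⟩ := H.exists_skew
  have skew : ∀ a b, fE a a = 0 → fE b b = 0 → fE a b ≠ 0 → fE b a = -fE a b → d a = d b := by
    intro a b haa hbb hab hba
    have ha0 : a ≠ 0 := fun e => hab (by rw [e, H.zero_left])
    have hb0 : b ≠ 0 := fun e => hab (by rw [e, H.zero_right])
    have hss : fE (a + b) (a + b) = 0 := by
      simp only [H.add_left, H.add_right, haa, hbb, hba]; ring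
    have hs0 : a + b ≠ 0 := fun e => hab (by
      have h3 : fE (a + b) b = 0 := by rw [e, H.zero_left]
      rwa [H.add_left, hbb, add_zero] at h3)
    have e : d (a + b) • (a + b) = d a • a + d b • b := by
      rw [hd _ hs0 hss, map_add, hd a ha0 haa, hd b hb0 hbb]
    have ea := congrArg (fun x => fE x b) e
    have eb := congrArg (fun x => fE x a) e
    simp only [smul_add, H.add_left, H.smul_left, haa, hbb, mul_zero, zero_add, add_zero] at ea eb
    rw [← mul_right_cancel₀ hab ea, mul_right_cancel₀ (by rw [hba]; exact neg_ne_zero.2 hab) eb]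
  have scal : ∀ a, a ≠ 0 → fE a a = 0 → ∀ c : E, T (c • a) = d a • c • a := by
    intro a ha haa
    obtain ⟨y, hyy, hay, hya⟩ := H.exists_partner ha haa
    have hfix : ∀ k : E, τ k = k → T (k • a) = d a • k • a := fun k hk => by
      rcases eq_or_ne k 0 with rfl | hk0
      · rw [zero_smul, map_zero, smul_zero]
      have hsy : fE (algebraMap F E ζ • y) (algebraMap F E ζ • y) = 0 := by
        rw [H.smul_left, H.smul_right, hyy, mul_zero, mul_zero]
      have hka : fE (k • a) (k • a) = 0 := by rw [H.smul_left, H.smul_right, haa, mul_zero, mul_zero]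
      have h1 : d (k • a) = d (algebraMap F E ζ • y) := skew _ _ hka hsy
        (by
          rw [H.smul_left, H.smul_right, hay, mul_one, hζτ]
          exact mul_ne_zero hk0 (neg_ne_zero.2 hζE))
        (by rw [H.smul_left, H.smul_right, H.smul_left, H.smul_right, hay, hya, hζτ, hk]; ring)
      have h2 : d a = d (algebraMap F E ζ • y) := skew _ _ haa hsy
        (by rw [H.smul_right, hay, mul_one, hζτ]; exact neg_ne_zero.2 hζE)
        (by rw [H.smul_left, H.smul_right, hay, hya, hζτ]; ring)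
      rw [← hd _ (smul_ne_zero hk0 ha) hka, h1, ← h2]
    intro c
    obtain ⟨ξ, -, hdec⟩ := H.inv.decomp
    obtain ⟨k, k', hk, hk', rfl⟩ := hdec c
    rw [add_smul, smul_assoc, map_add, hfix k hk, T.map_smul ξ, hfix k' hk', smul_comm ξ (d a), ← smul_add]
  have conn : ∀ a b, fE a a = 0 → fE b b = 0 → fE a b ≠ 0 → d a = d b := by
    intro a b haa hbb hab
    have hb0 : b ≠ 0 := fun e => hab (by rw [e, H.zero_right])
    set l := τ (algebraMap F E ζ / fE a b) with hl
    have hl0 : l ≠ 0 := (map_ne_zero_iff τ τ.injective).2 (div_ne_zero hζE hab)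
    have hlb : fE a (l • b) = algebraMap F E ζ := by
      rw [H.smul_right, hl, H.inv.invol, div_mul_cancel₀ _ hab]
    have hllb : fE (l • b) (l • b) = 0 := by rw [H.smul_left, H.smul_right, hbb, mul_zero, mul_zero]
    have h1 : d a = d (l • b) := skew _ _ haa hllb (by rw [hlb]; exact hζE) (by rw [H.herm, hlb, hζτ])
    have h2 : d (l • b) • l • b = d b • l • b := by rw [hd _ (smul_ne_zero hl0 hb0) hllb, scal b hb0 hbb]
    rw [h1]
    exact smul_left_injective E (smul_ne_zero hl0 hb0) h2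
  obtain ⟨v, hv, hvv⟩ := H.exists_iso
  have hconst : ∀ y, y ≠ 0 → fE y y = 0 → d y = d v := by
    intro y hy hyy
    obtain ⟨e, hee, hve, -⟩ := H.exists_partner hv hvv
    by_cases h1 : fE y v = 0
    swap
    · exact conn y v hyy hvv h1
    by_cases h2 : fE y e = 0
    swap
    · rw [conn y e hyy hee h2, ← conn v e hvv hee (by rw [hve]; exact one_ne_zero)]
    obtain ⟨z, hzz, hyz, -⟩ := H.exists_partner hy hyy
    by_cases h3 : fE z v = 0
    swap
    · rw [conn y z hyy hzz (by rw [hyz]; exact one_ne_zero), conn z v hzz hvv h3]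
    -- join `e` and `z` to an isotropic vector meeting both `v` and `y`
    obtain ⟨l, hl0, hl⟩ : ∃ l : E, l ≠ 0 ∧ τ l * fE e z + l * fE z e = 0 := by
      by_cases hez : fE e z = 0
      · exact ⟨1, one_ne_zero, by rw [hez, H.eq_zero_comm.1 hez, mul_zero, mul_zero, add_zero]⟩
      · refine ⟨τ (algebraMap F E ζ / fE e z), (map_ne_zero_iff τ τ.injective).2 (div_ne_zero hζE hez), ?_⟩
        rw [H.inv.invol, div_mul_cancel₀ _ hez, H.herm e z, map_div₀, hζτ,
          div_mul_cancel₀ _ ((map_ne_zero_iff τ τ.injective).2 hez), add_neg_cancel]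
    have huu : fE (e + l • z) (e + l • z) = 0 := by
      simp only [H.add_left, H.add_right, H.smul_left, H.smul_right, hee, hzz]
      linear_combination hl
    have hvu : fE v (e + l • z) ≠ 0 := by
      rw [H.add_right, H.smul_right, hve, H.eq_zero_comm.1 h3, mul_zero, add_zero]; exact one_ne_zero
    have hyu : fE y (e + l • z) ≠ 0 := by
      rw [H.add_right, H.smul_right, h2, hyz, zero_add, mul_one]; exact (map_ne_zero_iff τ τ.injective).2 hl0
    rw [conn y _ hyy huu hyu, ← conn v _ hvv huu hvu]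
  have hiso : ∀ y, fE y y = 0 → T y = d v • y := fun y hyy => by
    rcases eq_or_ne y 0 with rfl | hy
    · rw [map_zero, smul_zero]
    · rw [← hd y hy hyy, hconst y hy hyy]
  refine ⟨d v, fun x => ?_⟩
  have hall : ∀ y, T y = d v • y := fun y => by
    by_cases hyy : fE y y = 0
    · exact hiso y hyy
    · obtain ⟨a, b, haa, hbb, hab, -⟩ := H.exists_split hyy
      rw [hab, map_add, hiso a haa, hiso b hbb, smul_add]
  have := hall ((h : Mat) *ᵥ x)
  rwa [hT, H98.gl_inv_mulVec] at this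

end Cfsg.Agent.H66.UField
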