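import Cfsg.Agent.H58.ExtField.Sym
import Cfsg.Agent.H98.HermBase

/-!
# Invariant spaces of maps of an extension field with an involution

`E` has prime degree over the finite field `F` and carries an involutory automorphism `τ` extending a
non-trivial `σ` of `F`.  A set of maps of `E`, closed under composing through the scalars fixed by `τ`, that
carries by congruence into itself a proper space of maps containing all scalars, consists of semilinear maps,
provided it is also closed under one scalar whose twists are moved by the Galois group.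
-/

set_option autoImplicit false
set_option linter.unusedSectionVars false

namespace Cfsg.Agent.H66.UField

open Cfsg.Agent.H58.ExtField

variable {F : Type*} [Field F] [Fintype F] {E : Type*} [Field E] [Fintype E] [Algebra F E]

/-- An involution of the extension over a non-trivial one of the base. -/
structure Invol (σ : F ≃+* F) (τ : E ≃+* E) : Prop where
  invol : ∀ x, τ (τ x) = x
  compat : ∀ f : F, τ (algebraMap F E f) = algebraMap F E (σ f)
  moved : ∃ f : F, σ f ≠ f

variable {σ : F ≃+* F} {τ : E ≃+* E}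

omit [Fintype F] [Fintype E] in
theorem Invol.tau_smul (h : Invol σ τ) (f : F) (x : E) : τ (f • x) = σ f • τ x := by
  rw [Algebra.smul_def, Algebra.smul_def, map_mul, h.compat]

omit [Fintype F] [Fintype E] in
theorem Invol.sigma_invol (h : Invol σ τ) (f : F) : σ (σ f) = f :=
  (algebraMap F E).injective (by rw [← h.compat, ← h.compat, h.invol])

/-- The fixed elements and one element of `F` span. -/
theorem Invol.decomp (h : Invol σ τ) :
    ∃ ζ : F, σ ζ ≠ ζ ∧ ∀ c : E, ∃ a b : E, τ a = a ∧ τ b = b ∧ c = a + ζ • b := by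
  obtain ⟨ζ, hζ⟩ := h.moved
  set z := algebraMap F E ζ with hz
  have hne : z - τ z ≠ 0 := by
    rw [hz, h.compat, ← map_sub]
    exact fun e => hζ (sub_eq_zero.1 ((map_eq_zero _).1 e)).symm
  refine ⟨ζ, hζ, fun c => ⟨c - z * ((c - τ c) / (z - τ z)), (c - τ c) / (z - τ z), ?_, ?_, ?_⟩⟩
  · have e : τ ((c - τ c) / (z - τ z)) = (c - τ c) / (z - τ z) := by
      rw [map_div₀, map_sub, map_sub, h.invol, h.invol, ← neg_sub c, ← neg_sub z, neg_div_neg_eq]
    rw [map_sub, map_mul, e]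
    field_simp
    ring
  · rw [map_div₀, map_sub, map_sub, h.invol, h.invol, ← neg_sub c, ← neg_sub z, neg_div_neg_eq]
  · rw [Algebra.smul_def, ← hz]; ring

/-- A linear map vanishing on the fixed elements vanishes. -/
theorem Invol.ext_fixed (h : Invol σ τ) {V : Type*} [AddCommGroup V] [Module F V] (L : E →ₗ[F] V)
    (hL : ∀ x, τ x = x → L x = 0) (c : E) : L c = 0 := by
  obtain ⟨ζ, -, hζ⟩ := h.decomp
  obtain ⟨a, b, ha, hb, rfl⟩ := hζ c
  rw [map_add, map_smul, hL a ha, hL b hb, smul_zero, add_zero]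

/-- The involution commutes with the Galois group. -/
theorem tau_aut (g : E ≃ₐ[F] E) (x : E) : τ (g x) = g (τ x) := by
  obtain ⟨i, hi⟩ := (FiniteField.bijective_frobeniusAlgEquivOfAlgebraic_pow F E).2 g
  have e : ∀ y, g y = y ^ (Fintype.card F ^ (i : ℕ)) := fun y => by
    rw [← hi]
    simp [FiniteField.coe_frobeniusAlgEquivOfAlgebraic_iterate, AlgEquiv.coe_pow]
  rw [e, e, map_pow]

/-- The trace commutes with the involutions. -/
theorem Invol.tau_trace (h : Invol σ τ) (x : E) :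
    Algebra.trace F E (τ x) = σ (Algebra.trace F E x) := by
  refine (algebraMap F E).injective ?_
  rw [← h.compat, trace_eq_sum_automorphisms, trace_eq_sum_automorphisms, map_sum]
  exact Finset.sum_congr rfl fun g _ => (tau_aut g x).symm

/-- The adjoint for the pairing `tr (x * τ y)`. -/
theorem Invol.trace_adjH (h : Invol σ τ) (a : (E ≃ₐ[F] E) → E) (x y : E) :
    Algebra.trace F E (opn a x * τ y) = Algebra.trace F E (x * τ (adj (fun g => τ (a g)) y)) := by
  rw [trace_adj, adj_apply, adj_apply, map_sum]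
  congr 2
  refine Finset.sum_congr rfl fun g _ => ?_
  rw [tau_aut, map_mul τ, h.invol]

variable {F : Type*} [Field F] [Fintype F] {E : Type*} [Field E] [Fintype E] [Algebra F E]
variable {σ : F ≃+* F} {τ : E ≃+* E}

local notation "Gal'" => (E ≃ₐ[F] E)

/-- An automorphism combination is nonzero at a fixed element, for two such at once. -/
theorem Invol.exists_both_fixed (h : Invol σ τ) {C D : Gal' → E} (hC : C ≠ 0) (hD : D ≠ 0) :
    ∃ x : E, τ x = x ∧ ∑ g, C g * g x ≠ 0 ∧ ∑ g, D g * g x ≠ 0 := by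
  have one : ∀ {C : Gal' → E}, C ≠ 0 → ∃ x, τ x = x ∧ ∑ g, C g * g x ≠ 0 := fun {C} hC => by
    by_contra hc
    push Not at hc
    refine hC (aut_indep fun x => ?_)
    have := h.ext_fixed (opn C) (fun x hx => by rw [opn_apply]; exact hc x hx) x
    rwa [opn_apply] at this
  obtain ⟨x, hxτ, hx⟩ := one hC
  obtain ⟨y, hyτ, hy⟩ := one hD
  by_cases h1 : ∑ g, D g * g x = 0
  · by_cases h2 : ∑ g, C g * g y = 0
    · refine ⟨x + y, by rw [map_add, hxτ, hyτ], ?_, ?_⟩
      · simpa [mul_add, Finset.sum_add_distrib, h2] using hx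
      · simpa [mul_add, Finset.sum_add_distrib, h1] using hy
    · exact ⟨y, hyτ, h2, hy⟩
  · exact ⟨x, hxτ, hx, h1⟩

/-- The main dichotomy. -/
theorem semilinear_of_invariant (h : Invol σ τ) (hr : (Module.finrank F E).Prime)
    (W : Submodule F (E →ₗ[F] E)) (hE : ∀ c : E, LinearMap.mulLeft F c ∈ W) (hW : W ≠ ⊤)
    {ρ₀ : E} (hρ₀ : ∀ g : Gal', g ≠ 1 → ρ₀ * g (τ ρ₀) ≠ τ ρ₀ * g ρ₀)
    (𝒢 : Set (E →ₗ[F] E))
    (hcomp : ∀ A ∈ 𝒢, ∀ B ∈ 𝒢, ∀ ρ : E, ρ ≠ 0 → τ ρ = ρ → A ∘ₗ LinearMap.mulLeft F ρ ∘ₗ B ∈ 𝒢)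
    (hleft : ∀ A ∈ 𝒢, ∀ ρ : E, ρ ≠ 0 → (τ ρ = ρ ∨ ρ = ρ₀) → LinearMap.mulLeft F ρ ∘ₗ A ∈ 𝒢)
    (hinv : ∀ A ∈ 𝒢, ∀ A' : E →ₗ[F] E,
      (∀ x y : E, Algebra.trace F E (A x * τ y) = Algebra.trace F E (x * τ (A' y))) →
        ∀ ψ ∈ W, A ∘ₗ ψ ∘ₗ A' ∈ W)
    {A : E →ₗ[F] E} (hA : A ∈ 𝒢) : ∃ (c : E) (g : E ≃ₐ[F] E), ∀ x, A x = c * g x := by
  classical
  obtain ⟨ψ₀, -, hψ₀⟩ := SetLike.exists_of_lt (lt_top_iff_ne_top.2 hW)
  obtain ⟨Φ, hΦ, hΦW⟩ := Submodule.exists_le_ker_of_notMem hψ₀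
  have hΦ0 : ∀ ψ ∈ W, Φ ψ = 0 := fun ψ hψ => LinearMap.mem_ker.1 (hΦW hψ)
  choose φ hφ using fun g : Gal' => exists_trace_rep
    (Φ ∘ₗ (LinearMap.toSpanSingleton E (E →ₗ[F] E) g.toLinearMap).restrictScalars F)
  have hφ' : ∀ (g : Gal') (c : E), Φ (c • g.toLinearMap) = Algebra.trace F E (φ g * c) := hφ
  have hφ1 : φ 1 = 0 := eq_zero_of_trace (F := F) fun c => by
    rw [← hφ' 1 c, show c • (1 : Gal').toLinearMap = LinearMap.mulLeft F c from LinearMap.ext fun x => by simp]
    exact hΦ0 _ (hE c)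
  obtain ⟨m, hm⟩ : ∃ m, φ m ≠ 0 := by
    by_contra hc
    push Not at hc
    refine hΦ ?_
    obtain ⟨c, rfl⟩ := opn_surjective ψ₀
    rw [opn, map_sum]
    exact Finset.sum_eq_zero fun g _ => by rw [hφ', hc g, zero_mul, map_zero]
  have hm1 : m ≠ 1 := fun e => hm (e ▸ hφ1)
  have hρ₀0 : ρ₀ ≠ 0 := fun e => hρ₀ m hm1 (by rw [e]; simp)
  -- no two coefficients differ by `m`
  have key : ∀ a, opn a ∈ 𝒢 → ∀ k, a k * a (m⁻¹ * k) = 0 := by
    intro a ha
    let Ψ : E → E → E → F := fun x y z => Φ ((LinearMap.mulLeft F x ∘ₗ opn a) ∘ₗ LinearMap.mulLeft F z ∘ₗ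
      (adj (fun g => τ (a g)) ∘ₗ LinearMap.mulLeft F y))
    have hΨl : ∀ x x' y z, Ψ (x + x') y z = Ψ x y z + Ψ x' y z := fun x x' y z => by
      simp only [Ψ, ← map_add]; congr 1; ext s; simp [add_mul]
    have hΨr : ∀ x y y' z, Ψ x (y + y') z = Ψ x y z + Ψ x y' z := fun x y y' z => by
      simp only [Ψ, ← map_add]; congr 1; ext s; simp [add_mul, mul_add]
    have hΨsl : ∀ (f : F) x y z, Ψ (f • x) y z = f * Ψ x y z := fun f x y z => by
      simp only [Ψ, ← smul_eq_mul f, ← map_smul Φ]; congr 1; ext s; simp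
    have hΨsr : ∀ (f : F) x y z, Ψ x (f • y) z = f * Ψ x y z := fun f x y z => by
      simp only [Ψ, ← smul_eq_mul f, ← map_smul Φ]; congr 1; ext s; simp
    have hdiag : ∀ x : E, x ≠ 0 → LinearMap.mulLeft F x ∘ₗ opn a ∈ 𝒢 → ∀ z, Ψ x (τ x) z = 0 := by
      intro x _ hx z
      refine hΦ0 _ (hinv _ hx _ (fun s t => ?_) _ (hE z))
      simp only [LinearMap.comp_apply, LinearMap.mulLeft_apply]
      rw [← h.trace_adjH, map_mul τ, h.invol]
      congr 1; ring
    have hext : ∀ (u w : E) (z : E), (∀ s, τ s = s → Ψ (u * s) (w * s) z = 0) →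
        ∀ x y, Ψ (u * x) (w * y) z + Ψ (u * y) (w * x) z = 0 := by
      intro u w z hs
      let L : E → E →ₗ[F] F := fun y =>
        { toFun := fun x => Ψ (u * x) (w * y) z + Ψ (u * y) (w * x) z
          map_add' := fun s t => by simp only [mul_add, hΨl, hΨr]; ring
          map_smul' := fun f s => by
            simp only [mul_smul_comm, hΨsl, hΨsr, RingHom.id_apply, smul_eq_mul]; ring }
      have h1 : ∀ y, τ y = y → ∀ x, L y x = 0 := fun y hy => h.ext_fixed (L y) fun x hx => by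
        have h3 := hs (x + y) (by rw [map_add, hx, hy])
        simp only [mul_add, hΨl, hΨr, hs x hx, hs y hy, zero_add, add_zero] at h3
        show Ψ (u * x) (w * y) z + Ψ (u * y) (w * x) z = 0
        linear_combination h3
      intro x y
      refine h.ext_fixed (L x) (fun y' hy' => ?_) y |> fun e => by
        change Ψ (u * y) (w * x) z + Ψ (u * x) (w * y) z = 0 at e
        linear_combination e
      have := h1 y' hy' x
      change Ψ (u * x) (w * y') z + Ψ (u * y') (w * x) z = 0 at this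
      show Ψ (u * y') (w * x) z + Ψ (u * x) (w * y') z = 0
      linear_combination this
    have hP : ∀ x y z, Ψ x y z + Ψ y x z = 0 := fun x y z => by
      have := hext 1 1 z (fun s hs => by
        rcases eq_or_ne s 0 with rfl | hs0
        · simp [Ψ]
        have := hdiag s hs0 (hleft _ ha s hs0 (Or.inl hs)) z
        rwa [hs, ← one_mul s] at this) x y
      simpa using this
    have hQ : ∀ x y z, Ψ (ρ₀ * x) (τ ρ₀ * y) z + Ψ (ρ₀ * y) (τ ρ₀ * x) z = 0 := fun x y z =>
      hext ρ₀ (τ ρ₀) z (fun s hs => by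
        rcases eq_or_ne s 0 with rfl | hs0
        · simp [Ψ]
        have hmem := hleft _ (hleft _ ha ρ₀ hρ₀0 (Or.inr rfl)) s hs0 (Or.inl hs)
        have := hdiag (ρ₀ * s) (mul_ne_zero hρ₀0 hs0) (by
          convert hmem using 1
          ext t; simp [mul_left_comm]) z
        rwa [map_mul τ, hs] at this) x y
    have hS : ∀ x y z, Ψ (ρ₀ * x) (τ ρ₀ * y) z - Ψ (τ ρ₀ * x) (ρ₀ * y) z = 0 := fun x y z => by
      linear_combination hQ x y z - hP (τ ρ₀ * x) (ρ₀ * y) z
    let C : Gal' → Gal' → Gal' → E := fun g k l => g (φ (k * l⁻¹) * a k * (k * l⁻¹) (τ (a l)))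
    have hexp : ∀ x y z, algebraMap F E (Ψ x y z) =
        ∑ g : Gal', ∑ k : Gal', ∑ l : Gal', C g k l * g x * (g * (k * l⁻¹)) y * (g * k) z := by
      intro x y z
      have e : (LinearMap.mulLeft F x ∘ₗ opn a) ∘ₗ LinearMap.mulLeft F z ∘ₗ
          (adj (fun g => τ (a g)) ∘ₗ LinearMap.mulLeft F y) =
          ∑ k : Gal', ∑ l : Gal', (x * a k * k z * (k * l⁻¹) (τ (a l) * y)) • (k * l⁻¹ : Gal').toLinearMap := by
        refine LinearMap.ext fun s => ?_
        simp only [LinearMap.comp_apply, LinearMap.mulLeft_apply, opn_apply, adj_apply, LinearMap.sum_apply,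
          LinearMap.smul_apply, AlgEquiv.toLinearMap_apply, map_sum]
        conv_lhs => rw [Finset.sum_comm]
        refine Finset.sum_congr rfl fun k _ => Finset.sum_congr rfl fun l _ => ?_
        simp only [AlgEquiv.mul_apply, map_mul, smul_eq_mul]
        ring
      simp only [Ψ, e, map_sum, hφ', trace_eq_sum_automorphisms]
      conv_rhs => rw [Finset.sum_comm]
      refine Finset.sum_congr rfl fun k _ => ?_
      conv_rhs => rw [Finset.sum_comm]
      refine Finset.sum_congr rfl fun l _ => Finset.sum_congr rfl fun g _ => ?_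
      simp only [C, AlgEquiv.mul_apply, map_mul]
      ring
    let e1 : Gal' × Gal' × Gal' ≃ Gal' × Gal' × Gal' :=
      { toFun := fun p => (p.1, p.1⁻¹ * p.2.2, p.2.1⁻¹ * p.2.2)
        invFun := fun q => (q.1, q.1 * (q.2.1 * q.2.2⁻¹), q.1 * q.2.1)
        left_inv := fun p => Prod.ext rfl (Prod.ext (by simp) (by simp))
        right_inv := fun q => Prod.ext rfl (Prod.ext (by simp) (by simp [mul_assoc])) }
    have hD := aut_indep_triple
      (D := fun g u w => C g (g⁻¹ * w) (u⁻¹ * w) * (g ρ₀ * u (τ ρ₀) - g (τ ρ₀) * u ρ₀))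
      fun x y z => by
        refine Eq.trans ?_ (by rw [hS x y z, map_zero] :
          algebraMap F E (Ψ (ρ₀ * x) (τ ρ₀ * y) z - Ψ (τ ρ₀ * x) (ρ₀ * y) z) = 0)
        rw [map_sub, hexp, hexp]
        simp only [← Fintype.sum_prod_type', ← Finset.sum_sub_distrib]
        rw [← Equiv.sum_comp e1 (fun i : Gal' × Gal' × Gal' => _ - _)]
        refine Finset.sum_congr rfl fun i _ => ?_
        simp only [e1, Equiv.coe_fn_mk, map_mul, mul_inv_rev, inv_inv, mul_assoc, mul_inv_cancel_left]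
        ring
    intro k
    have h0 := congrFun (congrFun (congrFun hD 1) m) k
    simp only [C, Pi.zero_apply, inv_one, one_mul, mul_inv_rev, inv_inv, AlgEquiv.one_apply,
      mul_inv_cancel_left] at h0
    rcases mul_eq_zero.1 h0 with h1 | h1
    · rcases mul_eq_zero.1 h1 with h2 | h2
      · rw [(mul_eq_zero.1 h2).resolve_left hm, zero_mul]
      · have : a (m⁻¹ * k) = 0 := τ.injective (by rw [map_zero]; exact (map_eq_zero_iff m m.injective).1 h2)
        rw [this, mul_zero]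
    · exact absurd (sub_eq_zero.1 h1) (hρ₀ m hm1)
  -- one coefficient only
  obtain ⟨a, rfl⟩ := opn_surjective A
  by_cases h0 : ∀ g, a g = 0
  · exact ⟨0, 1, fun x => by rw [opn_apply]; simp [h0]⟩
  push Not at h0
  obtain ⟨i, hi⟩ := h0
  refine ⟨a i, i, fun x => ?_⟩
  rw [opn_apply, Finset.sum_eq_single i (fun b _ hb => ?_) (by simp)]
  by_contra hne
  have hbne : a b ≠ 0 := fun h => hne (by rw [h, zero_mul])
  have hrc : Nat.card Gal' = Module.finrank F E := IsGalois.card_aut_eq_finrank F E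
  have : Fact (Module.finrank F E).Prime := ⟨hr⟩
  have : IsCyclic Gal' := isCyclic_of_prime_card hrc
  have hcm : ∀ g h : Gal', g * h = h * g := fun g h => by
    let _ := IsCyclic.commGroup (α := Gal'); exact mul_comm g h
  have grow : ∀ t : ℕ, ∀ s ≤ t + 1, ∃ c, opn c ∈ 𝒢 ∧ c (i ^ (t + 1)) ≠ 0 ∧
      c (i ^ (t + 1 - s) * b ^ s) ≠ 0 := by
    intro t
    induction t with
    | zero =>
      intro s hs
      interval_cases s
      · exact ⟨a, hA, by simpa using hi, by simpa using hi⟩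
      · exact ⟨a, hA, by simpa using hi, by simpa using hbne⟩
    | succ t ih =>
      intro s hs
      obtain ⟨j, hj, s', hs', hidx⟩ : ∃ j, a j ≠ 0 ∧ ∃ s' ≤ t + 1,
          i ^ (t + 1 + 1 - s) * b ^ s = j * (i ^ (t + 1 - s') * b ^ s') := by
        rcases Nat.eq_zero_or_pos s with rfl | hs0
        · exact ⟨i, hi, 0, Nat.zero_le _, by simp [pow_succ']⟩
        · refine ⟨b, hbne, s - 1, by omega, ?_⟩
          rw [show t + 1 + 1 - s = t + 1 - (s - 1) by omega, ← mul_assoc, hcm b, mul_assoc, ← pow_succ',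
            show s - 1 + 1 = s by omega]
      obtain ⟨c, hc, hc1, hc2⟩ := ih s' hs'
      have hC : ∀ (j n : Gal'), a j ≠ 0 → c n ≠ 0 → (fun g => a g * g (c (g⁻¹ * (j * n)))) ≠ 0 := by
        intro j n h1 h2 hz
        have := congrFun hz j
        simp only [inv_mul_cancel_left, Pi.zero_apply, mul_eq_zero, h1, false_or] at this
        exact h2 (j.injective (this.trans (map_zero j).symm))
      obtain ⟨ρ, hρτ, h1, h2⟩ := h.exists_both_fixed (hC i _ hi hc1) (hC j _ hj hc2)
      have hρ : ρ ≠ 0 := fun hz => h1 (by simp [hz])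
      refine ⟨_, opn_comp a c ρ ▸ hcomp _ hA _ hc ρ hρ hρτ, ?_, ?_⟩
      · refine fun hz => h1 ?_
        have e : i ^ (t + 1 + 1) = i * i ^ (t + 1) := pow_succ' i _
        rw [← hz, e]
        exact Finset.sum_congr rfl fun g _ => by rw [map_mul]; ring
      · refine fun hz => h2 ?_
        rw [← hz, hidx]
        exact Finset.sum_congr rfl fun g _ => by rw [map_mul]; ring
  have hg : b * i⁻¹ ≠ 1 := fun h => hb (mul_inv_eq_one.1 h)
  obtain ⟨s, hs, hsm⟩ : ∃ s < Module.finrank F E, (b * i⁻¹) ^ s = m⁻¹ := by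
    have hord : orderOf (b * i⁻¹) = Module.finrank F E :=
      (hr.eq_one_or_self_of_dvd _ (hrc ▸ orderOf_dvd_natCard _)).resolve_left (by simpa using hg)
    have hmem : m⁻¹ ∈ Subgroup.zpowers (b * i⁻¹) := mem_zpowers_of_prime_card hrc hg
    obtain ⟨s, hs, h⟩ := Finset.mem_image.1 (mem_zpowers_iff_mem_range_orderOf.1 hmem)
    exact ⟨s, hord ▸ Finset.mem_range.1 hs, h⟩
  have hr1 : Module.finrank F E - 1 + 1 = Module.finrank F E := by have := hr.one_le; omega
  obtain ⟨c, hc, hc1, hc2⟩ := grow (Module.finrank F E - 1) s (by omega)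
  rw [hr1] at hc1 hc2
  have hpow : i ^ Module.finrank F E = 1 := hrc ▸ pow_card_eq_one'
  have hidx : i ^ (Module.finrank F E - s) * b ^ s = m⁻¹ := by
    rw [← hsm, Commute.mul_pow (hcm b i⁻¹), hcm (b ^ s), inv_pow]
    congr 1
    refine eq_inv_of_mul_eq_one_left ?_
    rw [← pow_add, Nat.sub_add_cancel hs.le, hpow]
  rw [hpow] at hc1
  rw [hidx] at hc2
  have hk := key c hc 1
  rw [mul_one] at hk
  exact hc2 ((mul_eq_zero.1 hk).resolve_left hc1)

end Cfsg.Agent.H66.UField
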